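import Cfsg.Agent.H2.ChkSteiner

/-! The search framework for the second subconstituent of a `srg(77,16,0,4)`:
blocks are four points `< 16` together with one label `≥ 16`. -/

set_option autoImplicit false

namespace Cfsg.Agent.H2.S77

open Finset Chk

/-- the properties used by the search -/
structure PP (B : Set (Finset (Fin 31))) : Prop where
  shape : ∀ b ∈ B, b.card = 5 ∧ ∃ l ∈ b, 16 ≤ l.val ∧ ∀ x ∈ b, 16 ≤ x.val → x = l
  same : ∀ b ∈ B, ∀ c ∈ B, b ≠ c → ∀ l : Fin 31, 16 ≤ l.val → l ∈ b → l ∈ c → (b ∩ c).card ≤ 1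
  diff : ∀ b ∈ B, ∀ c ∈ B, b ≠ c → (b ∩ c).card ≤ 2
  typ : ∀ b ∈ B, ∀ b' ∈ B, ∀ d ∈ B, ∀ l : Fin 31, 16 ≤ l.val → l ∈ b → l ∈ b' → l ∉ d →
    (d ∩ b).card = 1 → (d ∩ b').card = 1
  tri : ∀ b ∈ B, ∀ c ∈ B, ∀ d ∈ B, b ∩ c = ∅ → b ∩ d = ∅ → c ∩ d = ∅ → False
  cov : ∀ p l : Fin 31, p.val < 16 → 16 ≤ l.val → ∃ b ∈ B, p ∈ b ∧ l ∈ b
  cov3 : ∀ x y : Fin 31, x.val < 16 → y.val < 16 → x ≠ y → ∀ s : Finset (Finset (Fin 31)),
    s.card ≤ 2 → ∃ b ∈ B, x ∈ b ∧ y ∈ b ∧ b ∉ s

/-- evaluate a list before going on -/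
noncomputable def forceL {β : Type} (l : List ℕ) : (List ℕ → β) → β :=
  List.rec (fun k => k []) (fun x _ r k => force x (fun x' => r (fun t => k (x' :: t)))) l

theorem forceL_eq {β : Type} (l : List ℕ) (k : List ℕ → β) : forceL l k = k l := by
  induction l generalizing k with
  | nil => rfl
  | cons x l ih =>
    change force x (fun x' => forceL l (fun t => k (x' :: t))) = _
    rw [force_eq, ih]

def R16 : List ℕ := [0, 1, 2, 3, 4, 5, 6, 7, 8, 9, 10, 11, 12, 13, 14, 15]
def R31 : List ℕ := [0, 1, 2, 3, 4, 5, 6, 7, 8, 9, 10, 11, 12, 13, 14, 15, 16, 17, 18, 19, 20, 21,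
  22, 23, 24, 25, 26, 27, 28, 29, 30]
def HL : List ℕ := [16, 17, 18, 19, 20, 21, 22, 23, 24, 25, 26, 27, 28, 29, 30]

theorem R16_eq : R16 = List.range 16 := by decide
theorem R31_eq : R31 = List.range 31 := by decide
theorem mem_HL : ∀ l : Fin 31, 16 ≤ l.val → l.val ∈ HL := by decide

theorem testBit_hi {i : ℕ} (h : Nat.testBit 2147418112 i = true) : 16 ≤ i ∧ i < 31 := by
  by_cases hi : i < 31
  · refine ⟨?_, hi⟩
    interval_cases i <;> first | omega | exact absurd h (by decide)
  · have h2 : 2 ^ 31 ≤ 2 ^ i := Nat.pow_le_pow_right (by norm_num) (not_lt.1 hi)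
    rw [Nat.testBit_lt_two_pow (lt_of_lt_of_le (by norm_num) h2)] at h
    exact absurd h (by simp)

noncomputable def t1 (L : List ℕ) (l : ℕ) (acc : List ℕ) : Bool :=
  al L (fun b => BIF TB(b, l) THEN (Nat.ble (cnt b acc) 1) ELSE (Nat.ble (cnt b acc) 2))

noncomputable def od (L : List ℕ) (acc : List ℕ) : ℕ :=
  List.rec 0 (fun b _ a => BIF Nat.beq (cnt b acc) 1 THEN (Nat.lor a b) ELSE a) L

theorem od_spec (L acc : List ℕ) (x : ℕ) (h : (od L acc).testBit x = true) :
    ∃ b ∈ L, cnt b acc = 1 ∧ b.testBit x = true := by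
  induction L with
  | nil => exact absurd h (by simp [show od [] acc = 0 from rfl])
  | cons b L ih =>
    have e : od (b :: L) acc = cond (Nat.beq (cnt b acc) 1) (od L acc ||| b) (od L acc) :=
      brec_eq _ _ _
    rw [e] at h
    have ih' : (od L acc).testBit x = true → ∃ b' ∈ b :: L, cnt b' acc = 1 ∧
        b'.testBit x = true := fun h => let ⟨b', h1, h2⟩ := ih h
      ⟨b', List.mem_cons_of_mem _ h1, h2⟩
    cases h1 : Nat.beq (cnt b acc) 1
    · rw [h1] at h; exact ih' h
    · rw [h1] at h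
      simp only [cond_true, Nat.testBit_or, Bool.or_eq_true] at h
      rcases h with h | h
      · exact ih' h
      · exact ⟨b, List.mem_cons_self, Nat.eq_of_beq_eq_true h1, h⟩

noncomputable def t2 (L : List ℕ) (acc : List ℕ) : Bool :=
  force (Nat.land (od L acc) 2147418112) (fun o =>
    al L (fun b => BIF Nat.beq (cnt b acc) 1 THEN true ELSE (Nat.beq (Nat.land b o) 0)))

noncomputable def t3 (L : List ℕ) (l : ℕ) (acc : List ℕ) : Bool :=
  al L (fun b => BIF TB(b, l) THEN
    (al L (fun d => BIF TB(d, l) THEN true ELSE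
      (BIF Nat.beq (cnt d acc) 1 THEN (Nat.beq (cnt (Nat.land d b) R31) 1) ELSE
        (BIF Nat.beq (cnt (Nat.land d b) R31) 1 THEN false ELSE true)))) ELSE true)

noncomputable def t4 (L : List ℕ) (acc : List ℕ) : Bool :=
  forceL (fl (fun b => Nat.beq (cnt b acc) 0) L) (fun dis =>
    al dis (fun b => al dis (fun d => BIF Nat.beq (Nat.land b d) 0 THEN false ELSE true)))

noncomputable def full (L : List ℕ) (l : ℕ) (acc : List ℕ) : Bool :=
  BIF t1 L l acc THEN (BIF t2 L acc THEN (BIF t4 L acc THEN (t3 L l acc) ELSE false) ELSE false)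
    ELSE false

noncomputable def gen (L : List ℕ) (l : ℕ) (s : List ℕ) (r : ℕ) (out : List ℕ) : List ℕ :=
  BIF t1 L l s THEN
    (forceL (fl (fun x => BIF el s x THEN false ELSE (t1 L l (x :: s))) R16)
      (fun av => subs (full L l) av r s out)) ELSE out

theorem gen_mono {L : List ℕ} {l : ℕ} {s : List ℕ} {r : ℕ} {out : List ℕ} {m : ℕ} (h : m ∈ out) :
    m ∈ gen L l s r out := by
  unfold gen
  rw [brec_eq, forceL_eq]
  cases t1 L l s
  · exact h
  · exact subs_mono _ _ _ _ _ _ h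

section sound

variable {B : Set (Finset (Fin 31))} (hB : PP B) {L : List ℕ} (hL : ∀ m ∈ L, toF 31 m ∈ B)
  {c : Finset (Fin 31)} (hc : c ∈ B) (hne : ∀ b ∈ L, toF 31 b ≠ c) {l : Fin 31}
  (hl : 16 ≤ l.val) (hlc : l ∈ c)
include hB hL hc hne hl hlc

theorem t1_sound {acc : List ℕ} (h1 : acc.Nodup) (h2 : ∀ x ∈ acc, x < 31)
    (h3 : toF 31 (mk acc) ⊆ c) : t1 L l acc = true := by
  unfold t1
  rw [al_iff]
  intro b hb
  have h4 : cnt b acc ≤ (toF 31 b ∩ c).card := by
    rw [← card_inter_mk b h1 h2]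
    exact card_le_card (inter_subset_inter_left h3)
  rw [brec_eq, tb_eq]
  cases h5 : b.testBit l
  · simpa using h4.trans (hB.diff _ (hL b hb) _ hc (hne b hb))
  · simpa using h4.trans (hB.same _ (hL b hb) _ hc (hne b hb) l hl (mem_toF.2 h5) hlc)

theorem full_sound {acc : List ℕ} (h1 : acc.Nodup) (h2 : ∀ x ∈ acc, x < 31)
    (h3 : toF 31 (mk acc) = c) : full L l acc = true := by
  have hcnt : ∀ b, cnt b acc = (toF 31 b ∩ c).card := fun b => by
    rw [← card_inter_mk b h1 h2, h3]
  have e1 := t1_sound hB hL hc hne hl hlc h1 h2 h3.le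
  have e2 : t2 L acc = true := by
    unfold t2
    rw [force_eq, al_iff]
    intro b hb
    rw [brec_eq]
    cases h5 : Nat.beq (cnt b acc) 1
    swap
    · rfl
    have h6 : cnt b acc ≠ 1 := Nat.ne_of_beq_eq_false h5
    simp only [cond_false, Nat.beq_eq]
    apply Nat.eq_of_testBit_eq
    intro i
    change (b &&& (od L acc &&& 2147418112)).testBit i = _
    rw [Nat.zero_testBit, ← Bool.not_eq_true]
    simp only [Nat.testBit_and, Bool.and_eq_true]
    rintro ⟨h7, h8, h9⟩
    obtain ⟨h10, h11⟩ := testBit_hi h9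
    obtain ⟨b', hb', h12, h13⟩ := od_spec L acc i h8
    apply h6
    rw [hcnt] at h12 ⊢
    by_cases hic : (⟨i, h11⟩ : Fin 31) ∈ c
    · have := hB.same _ (hL b hb) _ hc (hne b hb) ⟨i, h11⟩ h10 (mem_toF.2 h7) hic
      have h14 : 0 < (toF 31 b ∩ c).card := card_pos.2 ⟨_, mem_inter.2 ⟨mem_toF.2 h7, hic⟩⟩
      omega
    · rw [inter_comm] at h12 ⊢
      exact hB.typ _ (hL b' hb') _ (hL b hb) _ hc ⟨i, h11⟩ h10 (mem_toF.2 h13) (mem_toF.2 h7) hic h12
  have e3 : t3 L l acc = true := by
    unfold t3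
    rw [al_iff]
    intro b hb
    rw [brec_eq, tb_eq]
    cases h5 : b.testBit l
    · rfl
    simp only [cond_true]
    rw [al_iff]
    intro d hd
    rw [brec_eq, tb_eq]
    cases h6 : d.testBit l
    swap
    · rfl
    have h7 : l ∉ toF 31 d := by rw [mem_toF, h6]; simp
    have h8 : cnt (Nat.land d b) R31 = (toF 31 d ∩ toF 31 b).card := by
      rw [R31_eq, ← card_toF, ← toF_and]; rfl
    have h9 : (toF 31 d ∩ c).card = 1 ↔ (toF 31 d ∩ toF 31 b).card = 1 :=
      ⟨hB.typ _ hc _ (hL b hb) _ (hL d hd) l hl hlc (mem_toF.2 h5) h7,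
        hB.typ _ (hL b hb) _ hc _ (hL d hd) l hl (mem_toF.2 h5) hlc h7⟩
    simp only [cond_false, brec_eq, h8, hcnt]
    by_cases h10 : (toF 31 d ∩ c).card = 1
    · rw [h10, h9.1 h10]; rfl
    · have h11 := mt h9.2 h10
      rw [← Nat.beq_eq, Bool.not_eq_true] at h10 h11
      rw [h10, h11]; rfl
  have e4 : t4 L acc = true := by
    unfold t4
    rw [forceL_eq, al_iff, fl_eq]
    intro b hb
    rw [al_iff]
    intro d hd
    rw [brec_eq]
    cases h5 : Nat.beq (Nat.land b d) 0
    · rfl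
    exfalso
    obtain ⟨hb1, hb2⟩ := List.mem_filter.1 hb
    obtain ⟨hd1, hd2⟩ := List.mem_filter.1 hd
    rw [Nat.beq_eq, hcnt, card_eq_zero] at hb2 hd2
    refine hB.tri _ (hL b hb1) _ (hL d hd1) _ hc ?_ hb2 hd2
    rw [← toF_and, show b &&& d = 0 from Nat.eq_of_beq_eq_true h5]
    ext x; simp [mem_toF]
  unfold full
  rw [e1, e2, e3, e4]

theorem gen_sound {s : List ℕ} (h1 : s.Nodup) (h2 : ∀ x ∈ s, x < 31) (h3 : toF 31 (mk s) ⊆ c)
    (h4 : l.val ∈ s) {r : ℕ} (hr : s.length + r = 5) (out : List ℕ) :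
    ∃ m ∈ gen L l s r out, toF 31 m = c := by
  unfold gen
  rw [t1_sound hB hL hc hne hl hlc h1 h2 h3, forceL_eq, fl_eq]
  change ∃ m ∈ subs _ _ _ _ _, _
  set av := R16.filter (fun x => BIF el s x THEN false ELSE (t1 L l (x :: s))) with hav
  let inc : ℕ → Bool := fun x => if hx : x < 31 then decide (⟨x, hx⟩ ∈ c) else false
  set u := av.filter inc with hu
  have hun : ∀ x ∈ u, x < 31 := fun x hx => by
    have := (List.mem_filter.1 (List.mem_filter.1 hx).1).1
    rw [R16_eq, List.mem_range] at this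
    omega
  have hund : u.Nodup := ((R16_eq ▸ List.nodup_range).filter _).filter _
  have hus : ∀ x ∈ u, x ∉ s := by
    intro x hx hxs
    have h5 := (List.mem_filter.1 (List.mem_filter.1 hx).1).2
    rw [el_of_mem hxs] at h5
    exact absurd h5 Bool.false_ne_true
  have hnd : (u.reverse ++ s).Nodup := by
    rw [List.nodup_append]
    refine ⟨List.nodup_reverse.2 hund, h1, fun a ha b hb e => ?_⟩
    exact hus a (List.mem_reverse.1 ha) (e ▸ hb)
  have hn : ∀ x ∈ u.reverse ++ s, x < 31 := by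
    intro x hx
    rcases List.mem_append.1 hx with hx | hx
    · exact hun x (List.mem_reverse.1 hx)
    · exact h2 x hx
  obtain ⟨hc5, l', hl'c, hl', hl'u⟩ := hB.shape c hc
  have key : toF 31 (mk (u.reverse ++ s)) = c := by
    ext x
    rw [mem_toF_mk, List.mem_append, List.mem_reverse]
    constructor
    · rintro (hx | hx)
      · have := (List.mem_filter.1 hx).2
        simpa [inc] using this
      · exact h3 (mem_toF_mk.2 hx)
    · intro hx
      by_cases hxs : x.val ∈ s
      · exact Or.inr hxs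
      left
      rw [hu, List.mem_filter, hav, List.mem_filter, R16_eq, List.mem_range]
      refine ⟨⟨?_, ?_⟩, by simpa [inc] using hx⟩
      · by_contra hx16
        apply hxs
        rw [hl'u x hx (not_lt.1 hx16), ← hl'u l hlc hl]
        exact h4
      · have : el s x = false := by
          rw [← Bool.not_eq_true]; exact fun h => hxs (mem_of_el h)
        rw [this]
        refine t1_sound hB hL hc hne hl hlc (List.nodup_cons.2 ⟨hxs, h1⟩) ?_ ?_
        · intro y hy
          rcases List.mem_cons.1 hy with rfl | hy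
          · exact x.2
          · exact h2 y hy
        · intro y hy
          rcases List.mem_cons.1 (mem_toF_mk.1 hy) with hy | hy
          · rw [Fin.ext hy]; exact hx
          · exact h3 (mem_toF_mk.2 hy)
  have hlen : u.length = r := by
    have := card_toF_mk hnd hn
    rw [key, hc5, List.length_append, List.length_reverse] at this
    omega
  refine ⟨mk (u.reverse ++ s), ?_, key⟩
  rw [← hlen]
  exact mem_subs _ _ _ _ _ List.filter_sublist (full_sound hB hL hc hne hl hlc hnd hn key)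

end sound

noncomputable def genAll (L : List ℕ) (x y : ℕ) (H : List ℕ) : List ℕ :=
  List.rec [] (fun l _ a => gen L l [x, y, l] 2 a) H

theorem genAll_mem {L : List ℕ} {x y : ℕ} {H : List ℕ} {l : ℕ} (hl : l ∈ H) {c : Finset (Fin 31)}
    (h : ∀ out, ∃ m ∈ gen L l [x, y, l] 2 out, toF 31 m = c) :
    ∃ m ∈ genAll L x y H, toF 31 m = c := by
  induction H with
  | nil => simp at hl
  | cons l' H ih =>
    rcases List.mem_cons.1 hl with rfl | hl
    · exact h _
    · obtain ⟨m, hm, e⟩ := ih hl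
      exact ⟨m, gen_mono hm, e⟩

/-- candidates -/
noncomputable def cands (L s : List ℕ) : Option (List ℕ) :=
  match s with
  | [p, l] => cond (Nat.blt p 16 && Nat.ble 16 l && Nat.blt l 31 &&
      al L (fun b => !(TB(b, p) && TB(b, l)))) (some (gen L l [p, l] 3 [])) none
  | [x, y, _] => cond (Nat.blt x y && Nat.blt y 16 &&
      Nat.ble (fl (fun b => TB(b, x) && TB(b, y)) L).length 2) (some (genAll L x y HL)) none
  | _ => none

theorem cands_sound {B : Set (Finset (Fin 31))} (hB : PP B) {L s cs : List ℕ}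
    (h : cands L s = some cs) (hL : ∀ m ∈ L, toF 31 m ∈ B) : ∃ c ∈ cs, toF 31 c ∈ B := by
  unfold cands at h
  split at h
  · rename_i p l
    rw [Bool.cond_eq_ite] at h
    split_ifs at h with h1
    simp only [Bool.and_eq_true, al_iff, Nat.blt_eq, Nat.ble_eq, tb_eq] at h1
    obtain ⟨⟨⟨h1, h2⟩, h3⟩, h4⟩ := h1
    obtain ⟨c, hc, hp, hl⟩ := hB.cov ⟨p, by omega⟩ ⟨l, h3⟩ h1 h2
    have hne : ∀ b ∈ L, toF 31 b ≠ c := by
      rintro b hb rfl
      have := h4 b hb
      rw [mem_toF] at hp hl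
      simp only at hp hl
      simp [hp, hl] at this
    obtain ⟨m, hm, e⟩ := gen_sound hB hL hc hne (l := ⟨l, h3⟩) h2 hl (s := [p, l])
      (by simp; omega) (by simp; omega) (by
        intro y hy
        rw [mem_toF_mk] at hy
        simp only [List.mem_cons, List.not_mem_nil, or_false] at hy
        rcases hy with hy | hy
        · rw [show y = ⟨p, by omega⟩ from Fin.ext hy]; exact hp
        · rw [show y = ⟨l, h3⟩ from Fin.ext hy]; exact hl) (by simp) (r := 3) rfl []
    exact ⟨m, Option.some.inj h ▸ hm, e ▸ hc⟩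
  · rename_i x y _
    rw [Bool.cond_eq_ite] at h
    split_ifs at h with h1
    simp only [Bool.and_eq_true, Nat.blt_eq, Nat.ble_eq, tb_eq, fl_eq] at h1
    obtain ⟨⟨h1, h2⟩, h3⟩ := h1
    obtain ⟨c, hc, hx, hy, hs⟩ := hB.cov3 ⟨x, by omega⟩ ⟨y, by omega⟩ (by simp; omega) h2
      (by simp; omega) ((L.filter (fun b => b.testBit x && b.testBit y)).toFinset.image (toF 31))
      (card_image_le.trans ((List.toFinset_card_le _).trans h3))
    have hne : ∀ b ∈ L, toF 31 b ≠ c := by
      rintro b hb rfl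
      apply hs
      rw [mem_toF] at hx hy
      simp only at hx hy
      exact mem_image_of_mem _ (by simp [hb, hx, hy])
    obtain ⟨-, l, hlc, hl, -⟩ := hB.shape c hc
    obtain ⟨m, hm, e⟩ := genAll_mem (L := L) (x := x) (y := y) (mem_HL l hl) (c := c)
      (gen_sound hB hL hc hne hl hlc (s := [x, y, l])
      (by simp; omega) (by simp; omega) (by
        intro z hz
        rw [mem_toF_mk] at hz
        simp only [List.mem_cons, List.not_mem_nil, or_false] at hz
        rcases hz with hz | hz | hz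
        · rw [show z = ⟨x, by omega⟩ from Fin.ext hz]; exact hx
        · rw [show z = ⟨y, by omega⟩ from Fin.ext hz]; exact hy
        · rw [Fin.ext hz]; exact hlc) (by simp) (r := 2) rfl)
    exact ⟨m, Option.some.inj h ▸ hm, e ▸ hc⟩
  · exact absurd h (by simp)

/-- allowed swaps -/
def vs (i j : ℕ) : Bool :=
  Nat.blt i 31 && Nat.blt j 31 && (Nat.blt i 16 == Nat.blt j 16)

end Cfsg.Agent.H2.S77
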