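import Cfsg.Agent.H2.D24

/-! Doubly even binary codes of length 24 with 4096 words and no word of weight 4. -/

set_option autoImplicit false

namespace Cfsg.Agent.H2

open Finset
open scoped symmDiff

variable {α β : Type*} [Fintype α] [DecidableEq α] [Fintype β] [DecidableEq β]

/-- a family of subsets with the numerical properties of the Golay code -/
structure GolayLike (C : Set (Finset α)) : Prop where
  card : Fintype.card α = 24
  symm : ∀ s ∈ C, ∀ t ∈ C, s ∆ t ∈ C
  ncard : C.ncard = 4096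
  dvd : ∀ s ∈ C, 4 ∣ s.card
  ne : ∀ s ∈ C, s.card ≠ 4

namespace GolayLike

variable {C : Set (Finset α)} (h : GolayLike C)
include h

theorem even_inter {s t : Finset α} (hs : s ∈ C) (ht : t ∈ C) : (s ∩ t).card % 2 = 0 := by
  have := card_symmDiff_add s t
  have := h.dvd _ hs
  have := h.dvd _ ht
  have := h.dvd _ (h.symm _ hs _ ht)
  omega

theorem eq_empty {s : Finset α} (hs : s ∈ C) (h8 : s.card < 8) : s = ∅ := by
  have := h.dvd _ hs
  have := h.ne _ hs
  rw [← card_eq_zero]; omega

theorem cover (a : α) (S : Finset α) : ∃ c ∈ C, ∃ x : Finset α, (x.card = 1 ∨ x.card = 3) ∧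
    (S = c ∆ x ∨ S = c ∆ x ∆ {a}) := by
  classical
  let X : Finset (Finset α) := powersetCard 1 univ ∪ powersetCard 3 univ
  have hX : ∀ x, x ∈ X ↔ x.card = 1 ∨ x.card = 3 := by simp [X]
  have hXc : X.card = 2048 := by
    rw [card_union_of_disjoint, card_powersetCard, card_powersetCard, card_univ, h.card]
    · decide
    · rw [disjoint_left]
      intro x h1 h2
      simp only [mem_powersetCard] at h1 h2
      omega
  let F : C × X × Bool → Finset α := fun p => p.1.1 ∆ p.2.1.1 ∆ (cond p.2.2 {a} ∅)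
  have hF : Function.Injective F := by
    rintro ⟨⟨c, hc⟩, ⟨x, hx⟩, b⟩ ⟨⟨c', hc'⟩, ⟨x', hx'⟩, b'⟩ e
    change c ∆ x ∆ (cond b {a} ∅) = c' ∆ x' ∆ (cond b' {a} ∅) at e
    have p1 := card_symmDiff_add c x
    have p2 := card_symmDiff_add (c ∆ x) (cond b {a} ∅)
    have p3 := card_symmDiff_add c' x'
    have p4 := card_symmDiff_add (c' ∆ x') (cond b' {a} ∅)
    have d1 := h.dvd _ hc
    have d2 := h.dvd _ hc'
    have x1 := (hX x).1 hx
    have x2 := (hX x').1 hx'
    rw [e] at p2
    have hb : b = b' := by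
      cases b <;> cases b' <;>
        simp only [cond_true, cond_false, card_singleton, card_empty] at p2 p4 <;> first | rfl | omega
    subst hb
    have e2 : c ∆ x = c' ∆ x' := symmDiff_left_injective _ e
    have e3 : c ∆ c' = x ∆ x' := by
      have : c = c' ∆ x' ∆ x := by rw [← e2, symmDiff_symmDiff_cancel_right]
      rw [this, symmDiff_assoc c', symmDiff_comm c', symmDiff_symmDiff_cancel_right, symmDiff_comm]
    have p5 := card_symmDiff_add x x'
    have e4 : c ∆ c' = ∅ := h.eq_empty (h.symm _ hc _ hc') (by rw [e3]; omega)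
    have e5 : c = c' := symmDiff_eq_bot.1 e4
    have e6 : x = x' := symmDiff_eq_bot.1 (e3 ▸ e4)
    subst e5 e6
    rfl
  have hcard : Nat.card (C × X × Bool) = Nat.card (Finset α) := by
    rw [Nat.card_prod, Nat.card_prod, Nat.card_coe_set_eq, h.ncard, Nat.card_eq_finsetCard, hXc,
      Nat.card_eq_fintype_card, Nat.card_eq_fintype_card, Fintype.card_finset, h.card]
    rfl
  obtain ⟨⟨⟨c, hc⟩, ⟨x, hx⟩, b⟩, e⟩ := ((Nat.bijective_iff_injective_and_card F).2 ⟨hF, hcard⟩).2 S
  refine ⟨c, hc, x, (hX x).1 hx, ?_⟩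
  cases b
  · left
    rw [← e]
    exact symmDiff_bot _
  · right
    exact e.symm

theorem steiner : IsSteinerSystem 5 8 {o | o ∈ C ∧ o.card = 8} := by
  refine ⟨fun b hb => hb.2, fun S hS => ?_⟩
  obtain ⟨a, -⟩ : S.Nonempty := card_pos.1 (by omega)
  obtain ⟨c, hc, x, hx, e⟩ := h.cover a S
  have p1 := card_symmDiff_add c x
  have p2 := card_symmDiff_add (c ∆ x) {a}
  have d1 := h.dvd _ hc
  have d2 := h.ne _ hc
  rcases e with e | e
  · have e' : c = S ∆ x := by rw [e, symmDiff_symmDiff_cancel_right]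
    have p3 := card_symmDiff_add S x
    rw [← e'] at p3
    rw [← e] at p1
    have p4 := card_le_card (inter_subset_right (s₁ := S) (s₂ := x))
    have p5 : (S ∩ x).card = 0 := by omega
    have hSc : S ⊆ c := by
      intro y hy
      rw [e', mem_symmDiff]
      left
      refine ⟨hy, fun hyx => ?_⟩
      have := card_eq_zero.1 p5 ▸ mem_inter.2 ⟨hy, hyx⟩
      simp at this
    refine ⟨c, ⟨⟨hc, by omega⟩, hSc⟩, ?_⟩
    rintro c' ⟨⟨hc', h8⟩, hSc'⟩
    have q1 := card_symmDiff_add c' c
    have q2 := card_le_card (subset_inter hSc' hSc)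
    exact symmDiff_eq_bot.1 (h.eq_empty (h.symm _ hc' _ hc) (by omega))
  · rw [← e, card_singleton] at p2
    omega

theorem mem_iff (s : Finset α) : s ∈ C ↔ ∀ o ∈ C, o.card = 8 → (o ∩ s).card % 2 = 0 := by
  refine ⟨fun hs o ho _ => h.even_inter ho hs, fun hs => ?_⟩
  obtain ⟨a⟩ : Nonempty α := Fintype.card_pos_iff.1 (by rw [h.card]; norm_num)
  obtain ⟨c, hc, x, hx, e⟩ := h.cover a s
  obtain ⟨y, hy, e'⟩ : ∃ y : Finset α, y.card ≤ 4 ∧ s = c ∆ y := by
    rcases e with e | e
    · exact ⟨x, by omega, e⟩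
    · refine ⟨x ∆ {a}, ?_, by rw [e, symmDiff_assoc]⟩
      have := card_symmDiff_add x {a}
      rw [card_singleton] at this
      omega
  by_cases hy0 : y.card = 0
  · rw [e', card_eq_zero.1 hy0]
    exact (symmDiff_bot c).symm ▸ hc
  · exfalso
    obtain ⟨o, ho, h1⟩ := exists_odd_24 h.card h.steiner (S := y) (by omega) (by omega)
    have h2 := hs o ho.1 ho.2
    have h3 := h.even_inter ho.1 hc
    have h4 := card_inter_symmDiff o c y
    rw [← e'] at h4
    omega

theorem iso {C' : Set (Finset β)} (h' : GolayLike C') : ∃ e : α ≃ β, mapSys e C = C' := by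
  obtain ⟨e, he⟩ := D24.strong.iso h.card h'.card h.steiner h'.steiner
  change mapSys e _ = _ at he
  refine ⟨e, ?_⟩
  ext s
  rw [mem_mapSys, h.mem_iff, h'.mem_iff]
  have key : ∀ o : Finset α, (o ∩ s.image e.symm).card = (o.image e ∩ s).card := by
    intro o
    rw [← card_image_of_injective _ e.injective, image_inter _ _ e.injective, image_image]
    simp
  constructor
  · intro H o ho h8
    have : o ∈ mapSys e {o | o ∈ C ∧ o.card = 8} := by rw [he]; exact ⟨ho, h8⟩
    obtain ⟨o', ho', rfl⟩ := this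
    rw [← key]
    exact H o' ho'.1 ho'.2
  · intro H o ho h8
    have : o.image e ∈ {o | o ∈ C' ∧ o.card = 8} := by rw [← he]; exact image_mem_mapSys ⟨ho, h8⟩
    rw [key]
    exact H _ this.1 this.2

end GolayLike

end Cfsg.Agent.H2
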