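import Cfsg.Agent.H2.SteinerCount

/-! The strongly regular graphs attached to S(3,6,22). -/

set_option autoImplicit false

namespace Cfsg.Agent.H2

open Finset

section Count

variable {α : Type*} [Fintype α] [DecidableEq α] {B : Set (Finset α)}

omit [Fintype α] in
theorem card_inter_union_add (d b c : Finset α) :
    (d ∩ (b ∪ c)).card + (d ∩ b ∩ c).card = (d ∩ b).card + (d ∩ c).card := by
  rw [inter_union_distrib_left, ← card_union_add_card_inter (d ∩ b) (d ∩ c)]
  congr 2
  ext x; simp; tauto

theorem nInt_union_22 (hα : Fintype.card α = 22) (hB : IsSteinerSystem 3 6 B) {b c : Finset α}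
    (hb : b ∈ B) (hc : c ∈ B) (hbc : b ≠ c) :
    nInt B (b ∪ c) 0 = 2 * (b ∩ c).card := by
  obtain ⟨h0, h1, h2, h3⟩ := moments_22 hα hB (b ∪ c)
  have key : ∀ d ∈ B, d = b ∨ d = c ∨ (d ∩ (b ∪ c)).card = 0 ∨ (d ∩ (b ∪ c)).card = 2 ∨
      (d ∩ (b ∪ c)).card = 4 ∨ ((d ∩ (b ∪ c)).card = 3 ∧ (b ∩ c).card ≠ 0) := by
    intro d hd
    by_cases h1 : d = b
    · exact Or.inl h1
    by_cases h2 : d = c
    · exact Or.inr (Or.inl h2)
    have a1 := inter_22 hα hB hd hb h1
    have a2 := inter_22 hα hB hd hc h2
    have a3 := card_inter_union_add d b c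
    have a4 : (d ∩ b ∩ c).card ≤ (d ∩ b).card := card_le_card inter_subset_left
    have a5 : (d ∩ b ∩ c).card ≤ (d ∩ c).card :=
      card_le_card (inter_subset_inter inter_subset_left subset_rfl)
    have a6 : (d ∩ b ∩ c).card ≤ (b ∩ c).card :=
      card_le_card (inter_subset_inter inter_subset_right subset_rfl)
    omega
  have eb : (b ∩ (b ∪ c)).card = 6 := by
    rw [inter_eq_left.2 subset_union_left, steiner_card hB hb]
  have ec : (c ∩ (b ∪ c)).card = 6 := by
    rw [inter_eq_left.2 subset_union_right, steiner_card hB hc]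
  have e1 : nInt B (b ∪ c) 1 = 0 := nInt_eq_zero_iff.2 fun d hd e => by
    rcases key d hd with rfl | rfl | h <;> omega
  have e5 : nInt B (b ∪ c) 5 = 0 := nInt_eq_zero_iff.2 fun d hd e => by
    rcases key d hd with rfl | rfl | h <;> omega
  have e3 : (b ∩ c).card = 0 → nInt B (b ∪ c) 3 = 0 := fun h0 =>
    nInt_eq_zero_iff.2 fun d hd e => by
      rcases key d hd with rfl | rfl | h <;> omega
  have e6 : nInt B (b ∪ c) 6 = 2 := by
    rw [nInt, ← card_pair hbc]
    congr 1
    ext d
    simp only [mem_filter, mem_blk, mem_insert, mem_singleton]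
    constructor
    · rintro ⟨hd, e⟩
      rcases key d hd with rfl | rfl | h
      · exact Or.inl rfl
      · exact Or.inr rfl
      · omega
    · rintro (rfl | rfl)
      · exact ⟨hb, eb⟩
      · exact ⟨hc, ec⟩
  have a1 := card_union_add_card_inter b c
  rw [steiner_card hB hb, steiner_card hB hc] at a1
  rcases inter_22 hα hB hb hc hbc with h | h
  · have e3' := e3 h
    rw [show (b ∪ c).card = 12 by omega] at h0 h1 h2 h3
    simp only [sum_range_succ, range_zero, sum_empty, Nat.choose] at h0 h1 h2 h3
    omega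
  · rw [show (b ∪ c).card = 10 by omega] at h0 h1 h2 h3
    simp only [sum_range_succ, range_zero, sum_empty, Nat.choose] at h0 h1 h2 h3
    omega

theorem card_mem_disjoint_22 (hα : Fintype.card α = 22) (hB : IsSteinerSystem 3 6 B) {b : Finset α}
    (hb : b ∈ B) {a : α} (ha : a ∉ b) :
    ((blk B).filter (fun c => a ∈ c ∧ Disjoint b c)).card = 6 := by
  obtain ⟨h0, h1, h2, h3⟩ := moments_22 hα hB (insert a b)
  have key : ∀ d ∈ B, d ≠ b → ((a ∈ d ∧ (d ∩ insert a b).card = (d ∩ b).card + 1) ∨
      (a ∉ d ∧ (d ∩ insert a b).card = (d ∩ b).card)) ∧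
        ((d ∩ b).card = 0 ∨ (d ∩ b).card = 2) := by
    intro d hd h1
    refine ⟨?_, inter_22 hα hB hd hb h1⟩
    by_cases had : a ∈ d
    · left
      rw [inter_insert_of_mem had, card_insert_of_notMem (fun h => ha (mem_inter.1 h).2)]
      exact ⟨had, rfl⟩
    · right
      rw [inter_insert_of_notMem had]
      exact ⟨had, rfl⟩
  have eb : (b ∩ insert a b).card = 6 := by
    rw [inter_eq_left.2 (subset_insert _ _), steiner_card hB hb]
  have e4 : nInt B (insert a b) 4 = 0 := nInt_eq_zero_iff.2 fun d hd e => by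
    by_cases h : d = b
    · subst h; omega
    · have := key d hd h; omega
  have e5 : nInt B (insert a b) 5 = 0 := nInt_eq_zero_iff.2 fun d hd e => by
    by_cases h : d = b
    · subst h; omega
    · have := key d hd h; omega
  have e6 : nInt B (insert a b) 6 = 1 := by
    rw [nInt, card_eq_one]
    refine ⟨b, ?_⟩
    ext d
    simp only [mem_filter, mem_blk, mem_singleton]
    constructor
    · rintro ⟨hd, e⟩
      by_contra h
      have := key d hd h; omega
    · rintro rfl
      exact ⟨hb, eb⟩
  rw [card_insert_of_notMem ha, steiner_card hB hb] at h0 h1 h2 h3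
  simp only [sum_range_succ, range_zero, sum_empty, Nat.choose] at h0 h1 h2 h3
  have : nInt B (insert a b) 1 = 6 := by omega
  rw [← this, nInt]
  congr 1
  refine filter_congr fun d hd => ?_
  rw [mem_blk] at hd
  rw [disjoint_comm, disjoint_iff_inter_eq_empty, ← card_eq_zero]
  by_cases h : d = b
  · subst h
    simp [ha, steiner_card hB hb]
  · have := key d hd h
    constructor
    · rintro ⟨h1, h2⟩
      rcases this.1 with h3 | h3
      · omega
      · exact absurd h1 h3.1
    · intro h1
      rcases this.1 with h3 | h3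
      · exact ⟨h3.1, by omega⟩
      · omega

omit [DecidableEq α] in
theorem ncard_subtype_blk (p : Finset α → Prop) [DecidablePred p] :
    {b : B | p b}.ncard = ((blk B).filter p).card := by
  rw [← Set.ncard_image_of_injective _ Subtype.val_injective, ← Set.ncard_coe_finset]
  congr 1
  ext b
  simp [and_comm]

theorem card_disjoint_eq_nInt (S : Finset α) :
    ((blk B).filter (fun c => Disjoint S c)).card = nInt B S 0 := by
  rw [nInt]
  congr 1
  refine filter_congr fun d _ => ?_
  rw [disjoint_comm, disjoint_iff_inter_eq_empty, card_eq_zero]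

theorem ncard_22 (hα : Fintype.card α = 22) (hB : IsSteinerSystem 3 6 B) : B.ncard = 77 := by
  have := lam_eq (j := 0) (l := 77) hB hα (by norm_num) (by decide) (by decide) ∅ rfl
  simpa [lam, card_blk] using this

end Count

section Graph

variable {α : Type*} {B : Set (Finset α)}

theorem blockGraph_adj (hne : ∀ b ∈ B, b.Nonempty) (b c : B) :
    (blockGraph B).Adj b c ↔ Disjoint (b : Finset α) c := by
  rw [blockGraph, SimpleGraph.fromRel_adj]
  constructor
  · rintro ⟨-, h | h⟩
    · exact h
    · exact h.symm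
  · intro h
    refine ⟨?_, Or.inl h⟩
    rintro rfl
    exact (hne _ b.2).ne_empty (disjoint_self.1 h)

@[simp] theorem pbg_none_none : ¬ (pointBlockGraph B).Adj none none := by simp

@[simp] theorem pbg_none_inl (a : α) : (pointBlockGraph B).Adj none (some (Sum.inl a)) := by
  simp [pointBlockGraph, pointBlockRel]

@[simp] theorem pbg_inl_none (a : α) : (pointBlockGraph B).Adj (some (Sum.inl a)) none :=
  (pbg_none_inl a).symm

@[simp] theorem pbg_none_inr (b : B) : ¬ (pointBlockGraph B).Adj none (some (Sum.inr b)) := by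
  simp [pointBlockGraph, pointBlockRel]

@[simp] theorem pbg_inr_none (b : B) : ¬ (pointBlockGraph B).Adj (some (Sum.inr b)) none :=
  fun h => pbg_none_inr b h.symm

@[simp] theorem pbg_inl_inl (a a' : α) :
    ¬ (pointBlockGraph B).Adj (some (Sum.inl a)) (some (Sum.inl a')) := by
  simp [pointBlockGraph, pointBlockRel]

@[simp] theorem pbg_inl_inr (a : α) (b : B) :
    (pointBlockGraph B).Adj (some (Sum.inl a)) (some (Sum.inr b)) ↔ a ∈ (b : Finset α) := by
  simp [pointBlockGraph, pointBlockRel]

@[simp] theorem pbg_inr_inl (a : α) (b : B) :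
    (pointBlockGraph B).Adj (some (Sum.inr b)) (some (Sum.inl a)) ↔ a ∈ (b : Finset α) := by
  rw [SimpleGraph.adj_comm, pbg_inl_inr]

theorem pbg_inr_inr (hne : ∀ b ∈ B, b.Nonempty) (b c : B) :
    (pointBlockGraph B).Adj (some (Sum.inr b)) (some (Sum.inr c)) ↔ Disjoint (b : Finset α) c := by
  rw [pointBlockGraph, SimpleGraph.fromRel_adj]
  constructor
  · rintro ⟨-, h | h⟩
    · exact h
    · exact Disjoint.symm h
  · intro h
    refine ⟨?_, Or.inl h⟩
    intro e
    have : b = c := Sum.inr_injective (Option.some_injective _ e)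
    subst this
    exact (hne _ b.2).ne_empty (disjoint_self.1 h)

open Classical in
theorem ncard_option_sum {X Y : Type*} [Finite X] [Finite Y] (S : Set (Option (X ⊕ Y))) :
    S.ncard = (if none ∈ S then 1 else 0) + {x | some (Sum.inl x) ∈ S}.ncard +
      {y | some (Sum.inr y) ∈ S}.ncard := by
  have := Fintype.ofFinite X
  have := Fintype.ofFinite Y
  have h : ∀ {Z : Type _} [Fintype Z] (T : Set Z), T.ncard = ∑ z, if z ∈ T then 1 else 0 := by
    intro Z _ T
    rw [Finset.sum_boole, ← Set.ncard_coe_finset]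
    simp
  have hX : ∀ (T : Set X), T.ncard = ∑ z, if z ∈ T then 1 else 0 := by
    intro T
    rw [Finset.sum_boole, ← Set.ncard_coe_finset]
    simp
  have hY : ∀ (T : Set Y), T.ncard = ∑ z, if z ∈ T then 1 else 0 := by
    intro T
    rw [Finset.sum_boole, ← Set.ncard_coe_finset]
    simp
  rw [h S, hX, hY, Fintype.sum_option, Fintype.sum_sum_type, add_assoc]
  rfl

end Graph

variable {α : Type*} [Fintype α] {B : Set (Finset α)}

omit [Fintype α] in
theorem nonempty_of_steiner_22 (hB : IsSteinerSystem 3 6 B) : ∀ b ∈ B, b.Nonempty := fun b hb =>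
  card_pos.1 (by rw [hB.1 b hb]; norm_num)

theorem blockGraph_srg (hα : Fintype.card α = 22) (hB : IsSteinerSystem 3 6 B) [Fintype B]
    [DecidableRel (blockGraph B).Adj] : (blockGraph B).IsSRGWith 77 16 0 4 := by
  classical
  have hne := nonempty_of_steiner_22 hB
  have hcn : ∀ v w : B, v ≠ w → Fintype.card ((blockGraph B).commonNeighbors v w) =
      2 * ((v : Finset α) ∩ w).card := by
    intro v w hvw
    rw [← Nat.card_eq_fintype_card, Nat.card_coe_set_eq,
      ← nInt_union_22 hα hB v.2 w.2 (fun e => hvw (Subtype.ext e)), ← card_disjoint_eq_nInt,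
      ← ncard_subtype_blk]
    congr 1
    ext d
    simp [SimpleGraph.mem_commonNeighbors, blockGraph_adj hne]
  refine ⟨?_, fun v => ?_, fun v w h => ?_, fun v w hvw h => ?_⟩
  · rw [← Nat.card_eq_fintype_card, Nat.card_coe_set_eq, ncard_22 hα hB]
  · rw [← SimpleGraph.card_neighborSet_eq_degree, ← Nat.card_eq_fintype_card, Nat.card_coe_set_eq,
      ← (nInt_block_22 hα hB v.2).1, ← card_disjoint_eq_nInt, ← ncard_subtype_blk]
    congr 1
    ext d
    simp [blockGraph_adj hne]
  · rw [hcn v w h.ne, disjoint_iff_inter_eq_empty.1 ((blockGraph_adj hne _ _).1 h)]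
    rfl
  · rw [hcn v w hvw]
    rw [blockGraph_adj hne, disjoint_iff_inter_eq_empty, ← card_eq_zero] at h
    have := inter_22 hα hB v.2 w.2 (fun e => hvw (Subtype.ext e))
    omega

theorem pbg_srg (hα : Fintype.card α = 22) (hB : IsSteinerSystem 3 6 B) [Fintype B]
    [DecidableRel (pointBlockGraph B).Adj] : (pointBlockGraph B).IsSRGWith 100 22 0 6 := by
  classical
  have hne := nonempty_of_steiner_22 hB
  have l1 : ∀ a : α, {b : B | a ∈ (b : Finset α)}.ncard = 21 := by
    intro a
    rw [ncard_subtype_blk (fun b => a ∈ b),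
      ← lam_eq (j := 1) (l := 21) hB hα (by norm_num) (by decide) (by decide) {a} rfl, lam]
    simp
  have l2 : ∀ a a' : α, a ≠ a' → {b : B | a ∈ (b : Finset α) ∧ a' ∈ (b : Finset α)}.ncard = 5 := by
    intro a a' h
    rw [ncard_subtype_blk (fun b => a ∈ b ∧ a' ∈ b),
      ← lam_eq (j := 2) (l := 5) hB hα (by norm_num) (by decide) (by decide) {a, a'}
        (card_pair h), lam]
    simp [insert_subset_iff]
  have l3 : ∀ b : B, {c : B | Disjoint (b : Finset α) c}.ncard = 16 := by
    intro b
    rw [ncard_subtype_blk (fun c => Disjoint (b : Finset α) c), card_disjoint_eq_nInt,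
      (nInt_block_22 hα hB b.2).1]
  have l4 : ∀ b c : B, b ≠ c →
      {d : B | Disjoint (b : Finset α) d ∧ Disjoint (c : Finset α) d}.ncard =
        2 * ((b : Finset α) ∩ c).card := by
    intro b c h
    rw [← nInt_union_22 hα hB b.2 c.2 (fun e => h (Subtype.ext e)), ← card_disjoint_eq_nInt,
      ← ncard_subtype_blk]
    simp
  have l5 : ∀ (a : α) (b : B), a ∉ (b : Finset α) →
      {c : B | a ∈ (c : Finset α) ∧ Disjoint (b : Finset α) c}.ncard = 6 := by
    intro a b h
    rw [ncard_subtype_blk (fun c => a ∈ c ∧ Disjoint (b : Finset α) c),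
      card_mem_disjoint_22 hα hB b.2 h]
  have l6 : ∀ (a : α) (b : B), a ∈ (b : Finset α) →
      {c : B | a ∈ (c : Finset α) ∧ Disjoint (b : Finset α) c} = ∅ := by
    intro a b h
    ext c
    simp only [Set.mem_ofPred_eq, Set.mem_empty_iff_false, iff_false, not_and]
    intro h1 h2
    exact disjoint_left.1 h2 h h1
  have l7 : ∀ b : B, (b : Finset α).card = 6 := fun b => hB.1 b b.2
  have l8 : ∀ b c : B, {x | x ∈ (b : Finset α) ∧ x ∈ (c : Finset α)}.ncard =
      ((b : Finset α) ∩ c).card := fun b c => by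
    rw [← Set.ncard_coe_finset, coe_inter]; rfl
  refine ⟨?_, fun v => ?_, fun v w h => ?_, fun v w hvw h => ?_⟩
  · rw [Fintype.card_option, Fintype.card_sum, hα, ← Nat.card_eq_fintype_card, Nat.card_coe_set_eq,
      ncard_22 hα hB]
  · rw [← SimpleGraph.card_neighborSet_eq_degree, ← Nat.card_eq_fintype_card, Nat.card_coe_set_eq,
      ncard_option_sum]
    rcases v with _ | a | b
    · simp [hα]
    · simp [l1]
    · simp [pbg_inr_inr hne, l3, l7]
  · rw [← Nat.card_eq_fintype_card, Nat.card_coe_set_eq, ncard_option_sum]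
    rcases v with _ | a | b <;> rcases w with _ | a' | b' <;>
      simp only [SimpleGraph.mem_commonNeighbors, pbg_none_none, pbg_none_inl, pbg_inl_none,
        pbg_none_inr, pbg_inr_none, pbg_inl_inl, pbg_inl_inr, pbg_inr_inl, pbg_inr_inr hne] at h ⊢
    · simp
    · simp
    · simp [l6 a b' h]
    · have := l6 a' b h
      simp only [and_comm (a := a' ∈ _)] at this
      simp [this]
    · rw [l4 b b' (by rintro rfl; exact (hne _ b.2).ne_empty (disjoint_self.1 h)), l8,
        disjoint_iff_inter_eq_empty.1 h]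
      simp
  · rw [← Nat.card_eq_fintype_card, Nat.card_coe_set_eq, ncard_option_sum]
    rcases v with _ | a | b <;> rcases w with _ | a' | b' <;>
      simp only [SimpleGraph.mem_commonNeighbors, pbg_none_none, pbg_none_inl, pbg_inl_none,
        pbg_none_inr, pbg_inr_none, pbg_inl_inl, pbg_inl_inr, pbg_inr_inl, pbg_inr_inr hne] at h ⊢
    · exact absurd rfl hvw
    · exact absurd trivial h
    · simp [l7]
    · exact absurd trivial h
    · simp [l2 a a' (by rintro rfl; exact hvw rfl)]
    · simp [l5 a b' h]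
    · simp [l7]
    · have := l5 a' b h
      simp only [and_comm (a := a' ∈ _)] at this
      simp [this]
    · have hbb : b ≠ b' := by rintro rfl; exact hvw rfl
      rw [l4 b b' hbb, l8]
      rw [disjoint_iff_inter_eq_empty, ← card_eq_zero] at h
      have := inter_22 hα hB b.2 b'.2 (fun e => hbb (Subtype.ext e))
      simp only [and_self, if_false]
      omega

end Cfsg.Agent.H2
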