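import Cfsg.Agent.H2.SrgBasic
import Cfsg.Agent.H2.Srg22
import Cfsg.Agent.H2.D22

/-! Uniqueness of the strongly regular graph with parameters (100, 22, 0, 6). -/

set_option autoImplicit false

namespace Cfsg.Agent.H2

open Finset

variable {V : Type*} [Fintype V] [DecidableEq V] {G : SimpleGraph V} [DecidableRel G.Adj]

theorem srg100_triple (h : G.IsSRGWith 100 22 0 6) {v w u : V} (hvw : v ≠ w) (hvw' : ¬ G.Adj v w)
    (huv : u ≠ v) (huw : u ≠ w) (huv' : ¬ G.Adj v u) (huw' : ¬ G.Adj w u) :
    ((univ.filter (fun a => G.Adj v a ∧ G.Adj w a)).filter (G.Adj u)).card = 2 := by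
  set C := univ.filter (fun a => G.Adj v a ∧ G.Adj w a) with hC
  have hCc : C.card = 6 := srg_nadj h hvw hvw'
  have hCm : ∀ a, a ∈ C ↔ G.Adj v a ∧ G.Adj w a := by simp [hC]
  let x : V → ℕ := fun u => (C.filter (G.Adj u)).card
  have s1 : ∑ u, x u = 132 := by
    rw [sum_card_adj, sum_congr rfl (fun a _ => srg_deg h a), sum_const, hCc]; rfl
  have s2 : ∑ u, x u ^ 2 = 312 := by
    simp only [sq, x]
    rw [sum_card_adj_mul, sum_congr rfl (g := fun _ => 52), sum_const, hCc]
    · rfl
    intro a ha
    rw [← add_sum_erase _ _ ha, sum_congr rfl (g := fun _ => 6), sum_const, card_erase_of_mem ha,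
      hCc]
    · simp only [and_self, srg_deg h a]; rfl
    intro a' ha'
    exact srg_nadj h (ne_of_mem_erase ha').symm fun hadj =>
      srg_notri h ((hCm a).1 ha).1 ((hCm a').1 (mem_of_mem_erase ha')).1 hadj
  let N := univ.filter (G.Adj v) ∪ univ.filter (G.Adj w)
  have hN : N.card = 38 := by
    have := card_union_add_card_inter (univ.filter (G.Adj v)) (univ.filter (G.Adj w))
    rw [srg_deg h, srg_deg h, ← filter_and, hCc] at this
    simp only [N]; omega
  have hvN : v ∉ insert w N := by simp [N, hvw, G.adj_comm w, hvw']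
  have hwN : w ∉ N := by simp [N, hvw']
  have hx0 : ∀ z ∈ N, x z = 0 := by
    intro z hz
    simp only [x, card_eq_zero, filter_eq_empty_iff]
    intro a ha hza
    simp only [N, mem_union, mem_filter, mem_univ, true_and] at hz
    rcases hz with hz | hz
    · exact srg_notri h hz ((hCm a).1 ha).1 hza
    · exact srg_notri h hz ((hCm a).1 ha).2 hza
  have hxv : x v = 6 := by
    simp only [x]
    rw [filter_true_of_mem (fun a ha => ((hCm a).1 ha).1), hCc]
  have hxw : x w = 6 := by
    simp only [x]
    rw [filter_true_of_mem (fun a ha => ((hCm a).1 ha).2), hCc]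
  have hD : (insert v (insert w N))ᶜ.card = 60 := by
    rw [card_compl, card_insert_of_notMem hvN, card_insert_of_notMem hwN, hN, h.card]
  refine eq_of_moments (insert v (insert w N))ᶜ x 2 ?_ ?_ u (by simp [N, huv, huw, huv', huw'])
  · have := sum_compl_add_sum (insert v (insert w N)) x
    rw [s1, sum_insert hvN, sum_insert hwN, sum_eq_zero hx0, hxv, hxw] at this
    omega
  · have := sum_compl_add_sum (insert v (insert w N)) (fun u => x u ^ 2)
    rw [s2, sum_insert hvN, sum_insert hwN, sum_eq_zero (s := N) (fun z hz => by rw [hx0 z hz]; rfl),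
      hxv, hxw] at this
    omega

/-- isomorphic designs have isomorphic point-block graphs -/
theorem pbg_iso {α β : Type*} [DecidableEq α] [DecidableEq β] {B : Set (Finset α)}
    {B' : Set (Finset β)} {e : α ≃ β} (he : mapSys e B = B') :
    ∃ φ : pointBlockGraph B ≃g pointBlockGraph B', φ none = none := by
  subst he
  let f : B ≃ mapSys e B := Equiv.Set.image (fun b : Finset α => b.image e) B
    (Finset.image_injective e.injective)
  have hf : ∀ b : B, (f b : Finset β) = (b : Finset α).image e := fun _ => rfl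
  have key : ∀ x y, pointBlockRel (mapSys e B) (Equiv.optionCongr (Equiv.sumCongr e f) x)
      (Equiv.optionCongr (Equiv.sumCongr e f) y) ↔ pointBlockRel B x y := by
    rintro (_ | a | b) (_ | a' | b') <;> simp [pointBlockRel, hf, disjoint_image e.injective]
  refine ⟨⟨Equiv.optionCongr (Equiv.sumCongr e f), fun {x y} => ?_⟩, rfl⟩
  simp only [pointBlockGraph, SimpleGraph.fromRel_adj, key, ne_eq, EmbeddingLike.apply_eq_iff_eq]

theorem srg100_iso (h : G.IsSRGWith 100 22 0 6) (v : V) :
    ∃ φ : G ≃g pointBlockGraph (Chk.sys 22 D22.L0), φ v = none := by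
  let α := {a // G.Adj v a}
  have hα : Fintype.card α = 22 := by rw [Fintype.card_subtype, srg_deg h]
  let Δ := {w // w ≠ v ∧ ¬ G.Adj v w}
  let bl : Δ → Finset α := fun w => univ.filter (fun a => G.Adj w.1 a.1)
  have hcard : ∀ p : V → Prop, ∀ [DecidablePred p],
      (univ.filter (fun a : α => p a.1)).card = (univ.filter (fun a => G.Adj v a ∧ p a)).card := by
    intro p _
    rw [← card_map (Function.Embedding.subtype _)]
    congr 1
    ext a
    simp [α, and_comm]
  have hbl : ∀ w, (bl w).card = 6 := fun w => by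
    rw [hcard]; exact srg_nadj h w.2.1.symm w.2.2
  have hint : ∀ w w' : Δ, w ≠ w' → (bl w ∩ bl w').card = if G.Adj w.1 w'.1 then 0 else 2 := by
    intro w w' hne
    rw [← filter_and, hcard (fun a => G.Adj w.1 a ∧ G.Adj w'.1 a)]
    split_ifs with hadj
    · rw [card_eq_zero, filter_eq_empty_iff]
      exact fun a _ ha => srg_notri h hadj ha.2.1 ha.2.2
    · rw [← srg100_triple h w.2.1.symm w.2.2 w'.2.1 (fun e => hne (Subtype.ext e.symm)) w'.2.2 hadj,
        filter_filter]
      simp only [and_assoc]
  have hinj : Function.Injective bl := by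
    intro w w' e
    by_contra hne
    have := hint w w' hne
    rw [← e, inter_self, hbl] at this
    split_ifs at this <;> omega
  have hΔ : Nat.card Δ = 77 := by
    rw [Nat.card_eq_fintype_card, Fintype.card_subtype]
    have : univ.filter (fun w => w ≠ v ∧ ¬ G.Adj v w) = (insert v (univ.filter (G.Adj v)))ᶜ := by
      ext w; simp
    rw [this, card_compl, card_insert_of_notMem (by simp), srg_deg h, h.card]
  have hB : IsSteinerSystem 3 6 (Set.range bl) := by
    refine steiner_of_count ?_ ?_ ?_
    · rintro _ ⟨w, rfl⟩; exact hbl w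
    · rintro _ ⟨w, rfl⟩ _ ⟨w', rfl⟩ hne
      rw [hint w w' (fun e => hne (congrArg bl e))]
      split_ifs <;> norm_num
    · rw [← Nat.card_coe_set_eq, Nat.card_range_of_injective hinj, hΔ, hα]; decide
  have hne := nonempty_of_steiner_22 hB
  let f : Δ ≃ Set.range bl := Equiv.ofInjective bl hinj
  have hf : ∀ w, (f w : Finset α) = bl w := fun _ => rfl
  let g : Option (α ⊕ Δ) → V := fun x => x.elim v (Sum.elim Subtype.val Subtype.val)
  have hg : Function.Bijective g := by
    constructor
    · rintro (_ | a | b) (_ | a' | b') e <;> simp only [g, Option.elim, Sum.elim_inl,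
        Sum.elim_inr] at e
      · rfl
      · exact absurd e a'.2.ne
      · exact absurd e.symm b'.2.1
      · exact absurd e a.2.ne'
      · rw [Subtype.ext e]
      · exact absurd (e ▸ a.2) b'.2.2
      · exact absurd e b.2.1
      · exact absurd (e ▸ a'.2) b.2.2
      · rw [Subtype.ext e]
    · intro w
      by_cases h1 : w = v
      · exact ⟨none, h1.symm⟩
      by_cases h2 : G.Adj v w
      · exact ⟨some (Sum.inl ⟨w, h2⟩), rfl⟩
      · exact ⟨some (Sum.inr ⟨w, h1, h2⟩), rfl⟩
  have key : ∀ x y, (pointBlockGraph (Set.range bl)).Adj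
      (Equiv.optionCongr (Equiv.sumCongr (Equiv.refl α) f) x)
      (Equiv.optionCongr (Equiv.sumCongr (Equiv.refl α) f) y) ↔ G.Adj (g x) (g y) := by
    rintro (_ | a | b) (_ | a' | b') <;>
      simp only [Equiv.optionCongr_apply, Option.map_none, Option.map_some, Equiv.sumCongr_apply,
        Sum.map_inl, Sum.map_inr, Equiv.refl_apply, pbg_none_none, pbg_none_inl, pbg_inl_none,
        pbg_none_inr, pbg_inr_none, pbg_inl_inl, pbg_inl_inr, pbg_inr_inl, pbg_inr_inr hne, hf,
        g, Option.elim, Sum.elim_inl, Sum.elim_inr, false_iff, true_iff]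
    · exact G.irrefl
    · exact a'.2
    · exact b'.2.2
    · exact a.2.symm
    · exact fun hadj => srg_notri h a.2 a'.2 hadj
    · simp [bl, G.adj_comm]
    · exact fun hadj => b.2.2 hadj.symm
    · simp [bl]
    · by_cases hbb : b = b'
      · subst hbb
        simp only [disjoint_self, G.irrefl, iff_false]
        exact (hne _ ⟨b, rfl⟩).ne_empty
      · rw [disjoint_iff_inter_eq_empty, ← card_eq_zero, hint b b' hbb]
        split_ifs with hadj <;> simp [hadj]
  let ψ : G ≃g pointBlockGraph (Set.range bl) :=
    ⟨(Equiv.ofBijective g hg).symm.trans (Equiv.optionCongr (Equiv.sumCongr (Equiv.refl α) f)),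
      fun {x y} => by
        rw [Equiv.trans_apply, Equiv.trans_apply, key]
        have := fun z => (Equiv.ofBijective g hg).apply_symm_apply z
        simp only [Equiv.ofBijective_apply] at this
        rw [this, this]⟩
  have hψ : ψ v = none := by
    have : (Equiv.ofBijective g hg).symm v = none := by
      rw [Equiv.symm_apply_eq]; rfl
    change Equiv.optionCongr _ ((Equiv.ofBijective g hg).symm v) = none
    rw [this]; rfl
  obtain ⟨e, he⟩ := D22.strong.exists_equiv' hα hB
  obtain ⟨φ, hφ⟩ := pbg_iso he
  exact ⟨ψ.trans φ, by rw [RelIso.trans_apply, hψ, hφ]⟩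

end Cfsg.Agent.H2
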