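import Cfsg.Agent.H2.M22
import Cfsg.Agent.H2.Srg100
import Cfsg.Prelude.Def_Sporadic

/-! The Higman–Sims group as the even part of the automorphism group of the point-block graph. -/

set_option autoImplicit false

namespace Cfsg.Agent.H2

open MulAction
open scoped Pointwise

theorem no_regular_normal_100 {G X : Type*} [Group G] [MulAction G X] [FaithfulSMul G X]
    [IsPreprimitive G X] (hX : Nat.card X = 100) (a : X) (N : Subgroup G) (hN : N.Normal)
    (ht : IsPretransitive N X) : N ⊓ stabilizer G a ≠ ⊥ := by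
  intro h
  have hc := card_eq_of_regular N a h
  rw [hX] at hc
  have : Finite N := Nat.finite_of_card_ne_zero (by rw [hc]; decide)
  have : Fact (Nat.Prime 5) := ⟨by norm_num⟩
  obtain ⟨P⟩ : Nonempty (Sylow 5 N) := inferInstance
  have hP : Nat.card P = 25 := by
    rw [P.card_eq_multiplicity, hc]
    have : Nat.factorization 100 5 = 2 := by
      rw [show 100 = 5 ^ 2 * 4 by norm_num, Nat.factorization_mul (by norm_num) (by norm_num),
        Finsupp.add_apply, Nat.Prime.factorization_pow (by norm_num),
        Nat.factorization_eq_zero_of_not_dvd (by norm_num)]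
      simp
    rw [this]; rfl
  have hi : (P : Subgroup N).index = 4 := by
    have := (P : Subgroup N).card_mul_index
    rw [hP, hc] at this
    omega
  have h1 := card_sylow_modEq_one 5 N
  have h2 := P.card_dvd_index
  rw [hi] at h2
  have h3 : Nat.card (Sylow 5 N) = 1 := by
    have := Nat.le_of_dvd (by norm_num) h2
    unfold Nat.ModEq at h1
    omega
  have : Subsingleton (Sylow 5 N) := (Nat.card_eq_one_iff_unique.1 h3).1
  have hPn : ((P : Subgroup N).map N.subtype).Normal := inferInstance
  have hc' : Nat.card ((P : Subgroup N).map N.subtype) = 25 := by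
    rw [Subgroup.card_map_of_injective N.subtype_injective, hP]
  have := normal_pretransitive (α := X) ((P : Subgroup N).map N.subtype) (by
    intro e
    rw [e, Subgroup.card_bot] at hc'
    omega)
  have : Nonempty X := ⟨a⟩
  have : Finite ((P : Subgroup N).map N.subtype) :=
    Nat.finite_of_card_ne_zero (by rw [hc']; decide)
  have := card_dvd_of_pretransitive (G := (P : Subgroup N).map N.subtype) (α := X)
  rw [hX, hc'] at this
  omega

variable {α : Type*} [DecidableEq α] {B : Set (Finset α)}

theorem coe_smul_blk (g : setSystemAut B) (b : B) :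
    ((g • b : B) : Finset α) = (g : Equiv.Perm α) • (b : Finset α) := rfl

theorem pointBlockRel_smul (g : setSystemAut B) (x y : Option (α ⊕ B)) :
    pointBlockRel B (g • x) (g • y) ↔ pointBlockRel B x y := by
  rcases x with _ | a | b <;> rcases y with _ | a' | b' <;>
    simp only [Option.smul_none, Option.smul_some, Sum.smul_inl, Sum.smul_inr, pointBlockRel,
      coe_smul_blk]
  · exact Finset.smul_mem_smul_finset_iff (g : Equiv.Perm α)
  · exact Finset.disjoint_image (g : Equiv.Perm α).injective

/-- the action of the group of the design on the point-block graph -/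
def toGraphAut (B : Set (Finset α)) :
    setSystemAut B →* (pointBlockGraph B ≃g pointBlockGraph B) where
  toFun g := ⟨MulAction.toPerm g, fun {x y} => by
    simp only [pointBlockGraph, SimpleGraph.fromRel_adj, MulAction.toPerm_apply,
      pointBlockRel_smul, ne_eq, smul_left_cancel_iff]⟩
  map_one' := by ext x : 1; exact one_smul (setSystemAut B) x
  map_mul' g h := by ext x : 1; exact mul_smul g h x

theorem toGraphAut_apply (g : setSystemAut B) (x : Option (α ⊕ B)) :
    toGraphAut B g x = g • x := rfl

theorem toGraphAut_injective : Function.Injective (toGraphAut B) := by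
  intro g h e
  ext a
  have := congrArg (fun φ => φ (some (Sum.inl a))) e
  simp only [toGraphAut_apply, Option.smul_some, Sum.smul_inl] at this
  exact Sum.inl_injective (Option.some_injective _ this)

theorem exists_toGraphAut [Finite α] (φ : pointBlockGraph B ≃g pointBlockGraph B)
    (hφ : φ none = none) : ∃ g, toGraphAut B g = φ := by
  have h1 : ∀ a : α, ∃ a', φ (some (Sum.inl a)) = some (Sum.inl a') := by
    intro a
    have := φ.map_rel_iff.2 (pbg_none_inl a)
    rw [hφ] at this
    generalize φ (some (Sum.inl a)) = z at this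
    rcases z with _ | a' | b'
    · simp at this
    · exact ⟨a', rfl⟩
    · simp at this
  have h2 : ∀ b : B, ∃ b', φ (some (Sum.inr b)) = some (Sum.inr b') := by
    intro b
    have a1 : ¬ (pointBlockGraph B).Adj (φ none) (φ (some (Sum.inr b))) := by
      rw [φ.map_rel_iff]; simp
    have a2 : φ (some (Sum.inr b)) ≠ φ none := fun e => by simpa using φ.injective e
    rw [hφ] at a1 a2
    generalize φ (some (Sum.inr b)) = z at a1 a2
    rcases z with _ | a' | b'
    · exact absurd rfl a2
    · simp at a1
    · exact ⟨b', rfl⟩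
  choose s hs using h1
  choose t ht using h2
  have hsi : Function.Injective s := by
    intro a a' e
    have : φ (some (Sum.inl a)) = φ (some (Sum.inl a')) := by rw [hs, hs, e]
    simpa using φ.injective this
  let σ : Equiv.Perm α := Equiv.ofBijective s (Finite.injective_iff_bijective.1 hsi)
  have h3 : ∀ b : B, (t b : Finset α) = σ • (b : Finset α) := by
    intro b
    ext y
    obtain ⟨x, rfl⟩ := σ.surjective y
    have : σ x ∈ σ • (b : Finset α) ↔ x ∈ (b : Finset α) := Finset.smul_mem_smul_finset_iff σ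
    rw [this, ← pbg_inl_inr, ← pbg_inl_inr, ← φ.map_rel_iff (a := some (Sum.inl x)), hs, ht]
    rfl
  have h4 : σ ∈ setSystemAut B := by
    rw [mem_aut_iff]
    apply Set.eq_of_subset_of_ncard_le
    · rintro _ ⟨b, hb, rfl⟩
      have := (t ⟨b, hb⟩).2
      rwa [h3] at this
    · rw [Set.ncard_smul_set]
    · exact Set.toFinite _
  refine ⟨⟨σ, h4⟩, ?_⟩
  ext x : 1
  rw [toGraphAut_apply]
  rcases x with _ | a | b
  · exact hφ.symm
  · exact (hs a).symm
  · rw [ht, Option.smul_some, Sum.smul_inr]
    congr 2
    exact Subtype.ext (h3 b).symm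

theorem blocks_trans_of_three (hB : IsSteinerSystem 3 6 B) (M : Subgroup (setSystemAut B))
    [h3 : IsMultiplyPretransitive M α 3] (b b' : B) : ∃ g : M, (g : setSystemAut B) • b = b' := by
  have hx : ∀ c : B, ∃ x : Fin 3 ↪ α, ∀ i, x i ∈ (c : Finset α) := by
    intro c
    obtain ⟨x⟩ : Nonempty (Fin 3 ↪ (c : Finset α)) :=
      Function.Embedding.nonempty_of_card_le (by simp [hB.1 c c.2])
    exact ⟨x.trans (Function.Embedding.subtype _), fun i => (x i).2⟩
  obtain ⟨x, hx1⟩ := hx b
  obtain ⟨y, hy1⟩ := hx b'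
  obtain ⟨g, hg⟩ := isMultiplyPretransitive_iff.1 h3 x y
  refine ⟨g, Subtype.ext ?_⟩
  refine steiner_unique hB (s := Finset.univ.map y) (by simp) ((g : setSystemAut B) • b).2 b'.2
    ?_ ?_
  · intro z hz
    obtain ⟨i, -, rfl⟩ := Finset.mem_map.1 hz
    rw [← hg, coe_smul_blk]
    exact Finset.smul_mem_smul_finset (hx1 i)
  · intro z hz
    obtain ⟨i, -, rfl⟩ := Finset.mem_map.1 hz
    exact hy1 i

variable [Fintype α]

theorem hs_of_tau (hα : Fintype.card α = 22) (hB : IsSteinerSystem 3 6 B) (τ : setSystemAut B)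
    (hτ2 : τ ^ 2 = 1) (hτs : sgnAut B τ = -1)
    (hτb : {b | b ∈ B ∧ (τ : Equiv.Perm α) • b = b}.ncard = 21) :
    ∃ H : Subgroup (pointBlockGraph B ≃g pointBlockGraph B), IsHS H := by
  classical
  have hsrg := pbg_srg hα hB
  have hV : Nat.card (Option (α ⊕ B)) = 100 := by rw [Nat.card_eq_fintype_card, hsrg.card]
  have htr : IsPretransitive (pointBlockGraph B ≃g pointBlockGraph B) (Option (α ⊕ B)) := by
    refine ⟨fun x y => ?_⟩
    obtain ⟨φ, hφ⟩ := srg100_iso hsrg x
    obtain ⟨ψ, hψ⟩ := srg100_iso hsrg y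
    refine ⟨φ.trans ψ.symm, ?_⟩
    change ψ.symm (φ x) = y
    rw [hφ, ← hψ, RelIso.symm_apply_apply]
  let sgn : (pointBlockGraph B ≃g pointBlockGraph B) →* ℤˣ :=
    Equiv.Perm.sign.comp (MulAction.toPermHom _ (Option (α ⊕ B)))
  have hsgn : ∀ g : setSystemAut B, sgn (toGraphAut B g) =
      sgnAut B g * Equiv.Perm.sign (MulAction.toPerm g : Equiv.Perm B) := by
    intro g
    have : MulAction.toPermHom _ (Option (α ⊕ B)) (toGraphAut B g) =
        Equiv.optionCongr (Equiv.Perm.sumCongr (g : Equiv.Perm α)
          (MulAction.toPerm g : Equiv.Perm B)) := by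
      ext x : 1
      rcases x with _ | a | b <;> rfl
    change Equiv.Perm.sign (MulAction.toPermHom _ (Option (α ⊕ B)) (toGraphAut B g)) = _
    rw [this, Equiv.optionCongr_sign, Equiv.Perm.sign_sumCongr]
    rfl
  have hτ : sgn (toGraphAut B τ) = -1 := by
    have s1 := Equiv.Perm.sign_of_pow_two_eq_one (σ := (MulAction.toPerm τ : Equiv.Perm B)) (by
      change (MulAction.toPermHom _ B τ) ^ 2 = 1
      rw [← map_pow, hτ2, map_one])
    have s2 : Fintype.card (Function.fixedPoints (MulAction.toPerm τ : Equiv.Perm B)) = 21 := by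
      rw [← Nat.card_eq_fintype_card, Nat.card_coe_set_eq, ← hτb,
        ← Set.ncard_image_of_injective _ Subtype.val_injective]
      congr 1
      ext b
      constructor
      · rintro ⟨c, hc, rfl⟩
        exact ⟨c.2, congrArg Subtype.val hc⟩
      · rintro ⟨h1, h2⟩
        exact ⟨⟨b, h1⟩, Subtype.ext h2, rfl⟩
    have s3 : Fintype.card B = 77 := by
      rw [← Nat.card_eq_fintype_card, Nat.card_coe_set_eq, ncard_22 hα hB]
    rw [hsgn, hτs, s1, s2, s3]
    decide
  have hHt : IsPretransitive sgn.ker (Option (α ⊕ B)) :=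
    pretransitive_ker_units sgn hτ (x := none) rfl
  have hA : Nat.card (pointBlockGraph B ≃g pointBlockGraph B) = 100 * 887040 := by
    rw [card_eq_card_mul_stabilizer (none : Option (α ⊕ B)), hV, ← card_aut_22 hα hB]
    congr 1
    symm
    refine Nat.card_congr (Equiv.ofBijective (fun g => ⟨toGraphAut B g, rfl⟩) ⟨?_, ?_⟩)
    · intro g h e
      exact toGraphAut_injective (congrArg Subtype.val e)
    · rintro ⟨φ, hφ⟩
      obtain ⟨g, rfl⟩ := exists_toGraphAut φ hφ
      exact ⟨g, rfl⟩
  have hH : Nat.card sgn.ker = 44352000 := by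
    have := sgn.ker.card_mul_index
    rw [index_ker_units sgn hτ, hA] at this
    omega
  obtain ⟨m1, m2, m3, m4⟩ := m22_facts hα hB
  have hle : (sgnAut B).ker ≤ (sgn.comp (toGraphAut B)).ker := by
    rcases m4.eq_bot_or_eq_top_of_normal
      ((sgn.comp (toGraphAut B)).comp (sgnAut B).ker.subtype).ker inferInstance with h | h
    · have := Nat.card_le_card_of_injective _ ((MonoidHom.ker_eq_bot_iff _).1 h)
      rw [m3, Nat.card_eq_fintype_card, Fintype.card_units_int] at this
      omega
    · intro g hg
      have : (⟨g, hg⟩ : (sgnAut B).ker) ∈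
        ((sgn.comp (toGraphAut B)).comp (sgnAut B).ker.subtype).ker := h ▸ Subgroup.mem_top _
      exact this
  have heq : (sgnAut B).ker = (sgn.comp (toGraphAut B)).ker := by
    apply Subgroup.eq_of_le_of_card_ge hle
    have a1 := (sgn.comp (toGraphAut B)).ker.card_mul_index
    rw [index_ker_units (sgn.comp (toGraphAut B)) (τ := τ) hτ, card_aut_22 hα hB] at a1
    omega
  let ψ0 : (sgnAut B).ker →* sgn.ker :=
    ((toGraphAut B).comp (sgnAut B).ker.subtype).codRestrict _ (fun g => hle g.2)
  let ψ : (sgnAut B).ker →* stabilizer sgn.ker (none : Option (α ⊕ B)) :=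
    ψ0.codRestrict _ (fun g => rfl)
  have hψs : Function.Surjective ψ := by
    rintro ⟨⟨φ, h1⟩, h2⟩
    obtain ⟨g, rfl⟩ := exists_toGraphAut φ h2
    exact ⟨⟨g, heq ▸ h1⟩, rfl⟩
  have hψi : Function.Injective ψ := by
    intro g h e
    exact Subtype.ext (toGraphAut_injective (congrArg (fun x => x.1.1) e))
  have : Nontrivial (stabilizer sgn.ker (none : Option (α ⊕ B))) := hψi.nontrivial
  have : IsSimpleGroup (stabilizer sgn.ker (none : Option (α ⊕ B))) :=
    IsSimpleGroup.isSimpleGroup_of_surjective ψ hψs
  have hprim : IsPreprimitive sgn.ker (Option (α ⊕ B)) := by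
    refine IsPreprimitive.of_isTrivialBlock_base (none : Option (α ⊕ B)) fun {T} hT hblk => ?_
    have hinv : ∀ (g : (sgnAut B).ker) (x : Option (α ⊕ B)), x ∈ T →
        (g : setSystemAut B) • x ∈ T := by
      intro g x hx
      have := hblk.smul_eq_of_mem (g := ψ0 g) hT hT
      rw [← this]
      exact Set.smul_mem_smul_set (a := ψ0 g) hx
    have c1 : {x | some (Sum.inl x) ∈ T}.ncard = 0 ∨ {x | some (Sum.inl x) ∈ T}.ncard = 22 := by
      rcases Set.eq_empty_or_nonempty {x | some (Sum.inl x) ∈ T} with h | ⟨x, hx⟩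
      · left; rw [h, Set.ncard_empty]
      · right
        have h1 : IsMultiplyPretransitive (sgnAut B).ker α 1 :=
          isMultiplyPretransitive_of_le (n := 3) (by norm_num)
            (by rw [Nat.card_eq_fintype_card, hα]; norm_num)
        have h2 := is_one_pretransitive_iff.1 h1
        have : {x | some (Sum.inl x) ∈ T} = Set.univ := by
          rw [Set.eq_univ_iff_forall]
          intro y
          obtain ⟨g, rfl⟩ := exists_smul_eq (sgnAut B).ker x y
          exact hinv g _ hx
        rw [this, Set.ncard_univ, Nat.card_eq_fintype_card, hα]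
    have c2 : {x | some (Sum.inr x) ∈ T}.ncard = 0 ∨ {x | some (Sum.inr x) ∈ T}.ncard = 77 := by
      rcases Set.eq_empty_or_nonempty {x | some (Sum.inr x) ∈ T} with h | ⟨x, hx⟩
      · left; rw [h, Set.ncard_empty]
      · right
        have : {x | some (Sum.inr x) ∈ T} = Set.univ := by
          rw [Set.eq_univ_iff_forall]
          intro y
          obtain ⟨g, rfl⟩ := blocks_trans_of_three hB (sgnAut B).ker x y
          exact hinv g _ hx
        rw [this, Set.ncard_univ, Nat.card_coe_set_eq, ncard_22 hα hB]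
    have c3 := ncard_option_sum T
    rw [if_pos hT] at c3
    have c4 := hblk.ncard_dvd_card ⟨_, hT⟩
    rw [hV] at c4
    have c5 : T.ncard = 1 ∨ T.ncard = 100 := by
      rcases c1 with c1 | c1 <;> rcases c2 with c2 | c2 <;> rw [c1, c2] at c3 <;>
        rw [c3] at c4 ⊢ <;> omega
    rcases c5 with c5 | c5
    · left
      exact (Set.ncard_le_one_iff_subsingleton).1 c5.le
    · right
      rw [Set.eq_univ_iff_ncard, c5, hV]
  exact ⟨sgn.ker, simple_of_stabilizer_simple (none : Option (α ⊕ B))
    (no_regular_normal_100 hV _), hH⟩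

/-- conjugation by a graph isomorphism -/
def graphAutEquiv {V W : Type*} {G : SimpleGraph V} {H : SimpleGraph W} (φ : G ≃g H) :
    (G ≃g G) ≃* (H ≃g H) where
  toFun a := (φ.symm.trans a).trans φ
  invFun a := (φ.trans a).trans φ.symm
  left_inv a := by ext x; simp
  right_inv a := by ext x; simp
  map_mul' a b := by ext x; simp

theorem exists_hs (hα : Fintype.card α = 22) (hB : IsSteinerSystem 3 6 B) :
    ∃ H : Subgroup (pointBlockGraph B ≃g pointBlockGraph B), IsHS H := by
  obtain ⟨e, he⟩ := D22.strong.exists_equiv' hα hB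
  have hS : IsSteinerSystem 3 6 (Chk.sys 22 D22.L0) := he ▸ steiner_mapSys hB e
  obtain ⟨H, h1, h2⟩ := hs_of_tau (Fintype.card_fin 22) hS ⟨tau, tau_mem hS⟩ (Subtype.ext tau_sq)
    sign_tau tau_fixed_blocks
  obtain ⟨φ, -⟩ := pbg_iso (mapSys_symm he)
  let E := (graphAutEquiv φ).subgroupMap H
  exact ⟨_, E.symm.isSimpleGroup, by rw [← h2]; exact Nat.card_congr E.symm.toEquiv⟩

end Cfsg.Agent.H2
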