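import Cfsg.Agent.H2.GolayLike
import Cfsg.Agent.H3.Leech

/-! Recognition of the Leech lattice among sublattices of `ℤ^24` containing a standard frame. -/

set_option autoImplicit false

namespace Cfsg.Agent.H2.Leech

open Finset Cfsg.Agent.H1 Cfsg.Agent.H3
open scoped symmDiff

theorem ncard_le_4096 {α : Type*} [Fintype α] [DecidableEq α] {C : Set (Finset α)}
    (hc : Fintype.card α = 24) (hs : ∀ s ∈ C, ∀ t ∈ C, s ∆ t ∈ C) (hd : ∀ s ∈ C, 4 ∣ s.card)
    (hn : ∀ s ∈ C, s.card ≠ 4) : C.ncard ≤ 4096 := by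
  classical
  obtain ⟨a⟩ : Nonempty α := Fintype.card_pos_iff.1 (by omega)
  let X : Finset (Finset α) := powersetCard 1 univ ∪ powersetCard 3 univ
  have hX : ∀ x, x ∈ X ↔ x.card = 1 ∨ x.card = 3 := by simp [X]
  have hXc : X.card = 2048 := by
    rw [card_union_of_disjoint, card_powersetCard, card_powersetCard, card_univ, hc]
    · decide
    · rw [disjoint_left]
      intro x h1 h2
      simp only [mem_powersetCard] at h1 h2
      omega
  let F : C × X × Bool → Finset α := fun p => p.1.1 ∆ p.2.1.1 ∆ (cond p.2.2 {a} ∅)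
  have hF : Function.Injective F := by
    rintro ⟨⟨c, hc⟩, ⟨x, hx⟩, b⟩ ⟨⟨c', hc'⟩, ⟨x', hx'⟩, b'⟩ e
    change c ∆ x ∆ (cond b {a} ∅) = c' ∆ x' ∆ (cond b' {a} ∅) at e
    have p1 := card_symmDiff_add c x
    have p2 := card_symmDiff_add (c ∆ x) (cond b {a} ∅)
    have p3 := card_symmDiff_add c' x'
    have p4 := card_symmDiff_add (c' ∆ x') (cond b' {a} ∅)
    have d1 := hd _ hc
    have d2 := hd _ hc'
    have x1 := (hX x).1 hx
    have x2 := (hX x').1 hx'
    rw [e] at p2
    have hb : b = b' := by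
      cases b <;> cases b' <;>
        simp only [cond_true, cond_false, card_singleton, card_empty] at p2 p4 <;> first | rfl | omega
    subst hb
    have e2 : c ∆ x = c' ∆ x' := symmDiff_left_injective _ e
    have e3 : c ∆ c' = x ∆ x' := by
      have : c = c' ∆ x' ∆ x := by rw [← e2, symmDiff_symmDiff_cancel_right]
      rw [this, symmDiff_assoc c', symmDiff_comm c', symmDiff_symmDiff_cancel_right, symmDiff_comm]
    have p5 := card_symmDiff_add x x'
    have e4 : c ∆ c' = ∅ := by
      have h1 := hd _ (hs _ hc _ hc')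
      have h2 := hn _ (hs _ hc _ hc')
      rw [← card_eq_zero]
      rw [e3] at h1 h2 ⊢
      omega
    have e5 : c = c' := symmDiff_eq_bot.1 e4
    have e6 : x = x' := symmDiff_eq_bot.1 (e3 ▸ e4)
    subst e5 e6
    rfl
  have := Nat.card_le_card_of_injective F hF
  rw [Nat.card_prod, Nat.card_prod, Nat.card_coe_set_eq, Nat.card_eq_finsetCard, hXc,
      Nat.card_eq_fintype_card, Nat.card_eq_fintype_card, Fintype.card_finset, hc,
      Fintype.card_bool] at this
  omega

theorem card_le_759 {α : Type*} [Fintype α] [DecidableEq α] {O : Finset (Finset α)}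
    (hc : Fintype.card α = 24) (h8 : ∀ s ∈ O, s.card = 8)
    (hs : ∀ s ∈ O, ∀ t ∈ O, s ≠ t → 8 ≤ (s ∆ t).card) : O.card ≤ 759 := by
  have h1 : (O.biUnion (powersetCard 5)).card ≤ (powersetCard 5 (univ : Finset α)).card :=
    card_le_card fun x hx => by
      obtain ⟨s, -, hx⟩ := mem_biUnion.1 hx
      exact mem_powersetCard.2 ⟨subset_univ _, (mem_powersetCard.1 hx).2⟩
  rw [card_biUnion, sum_congr rfl (g := fun _ => 56), sum_const, card_powersetCard, card_univ, hc,
    smul_eq_mul, show Nat.choose 24 5 = 42504 by decide +kernel] at h1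
  · omega
  · intro s hs'
    rw [card_powersetCard, h8 s hs']; rfl
  · intro s hs' t ht hst
    rw [Function.onFun, disjoint_left]
    intro x h2 h3
    rw [mem_powersetCard] at h2 h3
    have h4 := card_le_card (subset_inter h2.1 h3.1)
    have := card_symmDiff_add s t
    have := hs s hs' t ht hst
    have := h8 s hs'
    have := h8 t ht
    omega

/-- even sublattice of `ℤ^24` (scaled) containing the standard frame lattice -/
structure LL (K : AddSubgroup V) : Prop where
  d16 : ∀ x ∈ K, (16 : ℤ) ∣ sqNorm x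
  four : ∀ x : V, (∀ i, x i % 4 = 0) → (∑ i, x i) % 8 = 0 → x ∈ K

/-- the code of such a lattice -/
def code (K : AddSubgroup V) : Set (Finset GolayPt) :=
  {c | ∃ x ∈ K, ∀ i, x i % 4 = if i ∈ c then 2 else 0}

theorem sqNorm_add' (x y : V) : sqNorm (x + y) = sqNorm x + sqNorm y + 2 * dotInt x y := by
  simp only [sqNorm_def, dotInt_def, mul_sum, ← sum_add_distrib, Pi.add_apply]
  exact sum_congr rfl fun i _ => by ring

namespace LL

variable {K : AddSubgroup V} (h : LL K)
include h

theorem dot8 {x y : V} (hx : x ∈ K) (hy : y ∈ K) : (8 : ℤ) ∣ dotInt x y := by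
  have := sqNorm_add' x y
  have := h.d16 _ hx
  have := h.d16 _ hy
  have := h.d16 _ (K.add_mem hx hy)
  omega

theorem sg_mem (p q : GolayPt) : sg p 4 + sg q 4 ∈ K :=
  h.four _ (fun i => by simp only [Pi.add_apply, sg]; split_ifs <;> rfl)
    (by simp only [Pi.add_apply, sum_add_distrib, sum_sg]; rfl)

theorem parity {x : V} (hx : x ∈ K) (i j : GolayPt) : x i % 2 = x j % 2 := by
  have := h.dot8 hx (h.sg_mem i j)
  simp only [dotInt_def, Pi.add_apply, mul_add, sum_add_distrib, sg, mul_ite, mul_zero,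
    sum_ite_eq', mem_univ, if_true] at this
  omega

theorem mem_of_congr {x y : V} (hx : x ∈ K) (h4 : ∀ i, x i % 4 = y i % 4)
    (h8 : (∑ i, x i) % 8 = (∑ i, y i) % 8) : y ∈ K := by
  have : y = x + (y - x) := by simp
  rw [this]
  refine K.add_mem hx (h.four _ (fun i => ?_) ?_)
  · have := h4 i
    rw [Pi.sub_apply]; omega
  · simp only [Pi.sub_apply, sum_sub_distrib]; omega

theorem exists_norm {c : Finset GolayPt} (hc : c ∈ code K) (hne : c.Nonempty) :
    ∃ y ∈ K, y ≠ 0 ∧ sqNorm y = 4 * c.card := by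
  obtain ⟨x, hx, hxc⟩ := hc
  obtain ⟨p, hp⟩ := hne
  have h1 : ∀ i, x i % 4 = two c i % 4 := fun i => by
    rw [hxc, two]; split_ifs <;> rfl
  have h2 : (∑ i, x i) % 4 = (∑ i, two c i) % 4 := sum_emod_congr _ _ _ _ fun i _ => h1 i
  by_cases h8 : (∑ i, x i) % 8 = (∑ i, two c i) % 8
  · refine ⟨two c, h.mem_of_congr hx h1 h8, fun e => ?_, ?_⟩
    · have := congrFun e p
      simp [two, hp] at this
    · rw [sqNorm_def, sum_congr rfl (g := fun i => if i ∈ c then 4 else 0), sum_ite_mem_const]
      · ring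
      · intro i _; unfold two; split_ifs <;> rfl
  · refine ⟨two c - sg p 4, h.mem_of_congr hx (fun i => ?_) ?_, fun e => ?_, ?_⟩
    · rw [h1, Pi.sub_apply, sg]; split_ifs <;> omega
    · simp only [Pi.sub_apply, sum_sub_distrib, sum_sg]; omega
    · have := congrFun e p
      simp [two, sg, hp] at this
    · rw [sqNorm_def, sum_congr rfl (g := fun i => if i ∈ c then 4 else 0), sum_ite_mem_const]
      · ring
      · intro i _
        simp only [Pi.sub_apply, two, sg]
        by_cases hi : i = p
        · simp [hi, hp]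
        · simp only [hi, if_false]; split_ifs <;> rfl

theorem code_dvd {c : Finset GolayPt} (hc : c ∈ code K) : 4 ∣ c.card := by
  rcases c.eq_empty_or_nonempty with rfl | hne
  · simp
  · obtain ⟨y, hy, -, e⟩ := h.exists_norm hc hne
    have := h.d16 y hy
    omega

omit h in
theorem code_symm {c d : Finset GolayPt} (hc : c ∈ code K) (hd : d ∈ code K) : c ∆ d ∈ code K := by
  obtain ⟨x, hx, hxc⟩ := hc
  obtain ⟨y, hy, hyc⟩ := hd
  refine ⟨x + y, K.add_mem hx hy, fun i => ?_⟩
  have h1 := hxc i
  have h2 := hyc i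
  simp only [Pi.add_apply, Finset.mem_symmDiff]
  by_cases a : i ∈ c <;> by_cases b : i ∈ d <;> simp only [a, b, if_true, if_false] at h1 h2 <;>
    simp [a, b] <;> omega

theorem res_mem {x : V} (hx : x ∈ K) (h0 : x none % 2 = 0) :
    (univ.filter fun i => x i % 4 = 2) ∈ code K := by
  refine ⟨x, hx, fun i => ?_⟩
  have := h.parity hx i none
  simp only [mem_filter, mem_univ, true_and]
  split_ifs <;> omega

/-- the lattice is determined by its code -/
theorem eq_leech (hc : code K = GC) {x₀ : V} (hx₀ : x₀ ∈ K) (h1 : ∀ i, x₀ i % 4 = 1) :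
    K = leechLattice := by
  have hsum : ∀ x ∈ K, x none % 2 = 0 → (∑ i, x i) % 8 = 0 := by
    intro x hx h0
    have h2 := h.dot8 hx hx₀
    have h3 : (∑ i, x i * x₀ i) % 8 = (∑ i, x i) % 8 := sum_emod_congr _ _ _ _ fun i _ => by
      have h4 := h.parity hx i none
      obtain ⟨a, ha⟩ : ∃ a, x i = 2 * a := ⟨x i / 2, by omega⟩
      obtain ⟨b, hb⟩ : ∃ b, x₀ i = 4 * b + 1 := ⟨x₀ i / 4, by have := h1 i; omega⟩
      rw [ha, hb, show 2 * a * (4 * b + 1) = 2 * a + 8 * (a * b) by ring]
      omega
    rw [dotInt_def] at h2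
    omega
  have hs0 : (∑ i, x₀ i) % 8 = 4 := by
    have h2 := h.d16 _ hx₀
    have h3 : (∑ i, x₀ i ^ 2) % 16 = (∑ i, (2 * x₀ i - 1)) % 16 :=
      sum_emod_congr _ _ _ _ fun i _ => by
        obtain ⟨b, hb⟩ : ∃ b, x₀ i = 4 * b + 1 := ⟨x₀ i / 4, by have := h1 i; omega⟩
        rw [hb, show (4 * b + 1) ^ 2 = 2 * (4 * b + 1) - 1 + 16 * (b * b) by ring]
        omega
    rw [sum_sub_distrib, ← mul_sum, sum_const, card_univ, card_golayPt] at h3
    rw [sqNorm_def] at h2
    simp only [nsmul_eq_mul] at h3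
    omega
  have heven : ∀ x ∈ K, x none % 2 = 0 → IsL x := by
    intro x hx h0
    refine ⟨0, _, hc ▸ h.res_mem hx h0, fun i hi => ?_, fun i hi => ?_, ?_⟩
    · simpa using hi
    · have := h.parity hx i none
      simp only [mem_filter, mem_univ, true_and] at hi
      omega
    · simpa using hsum x hx h0
  have hL0 : IsL x₀ := ⟨1, ∅, empty_mem_GC, by simp, fun i _ => by have := h1 i; omega, by omega⟩
  apply le_antisymm
  · intro x hx
    rw [mem_leech]
    by_cases h0 : x none % 2 = 0
    · exact heven x hx h0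
    · have : x = (x - x₀) + x₀ := by simp
      rw [this]
      refine (heven _ (K.sub_mem hx hx₀) ?_).add hL0
      have := h1 none
      rw [Pi.sub_apply]; omega
  · intro x hx
    refine le_of_gens K (fun p => h.sg_mem p none) (fun b hb => ?_) ?_ (mem_leech.1 hx)
    · have hb' := rows_mem_GC b hb
      generalize toSet b = c at hb'
      have h4 := four_dvd_card hb'
      rw [← hc] at hb'
      obtain ⟨y, hy, hyc⟩ := hb'
      refine h.mem_of_congr hy (fun i => ?_) ?_
      · rw [hyc, two]; split_ifs <;> rfl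
      · rw [hsum y hy (by have := hyc none; split_ifs at this <;> omega)]
        simp only [two, sum_ite_mem_const]; omega
    · refine h.mem_of_congr hx₀ (fun i => ?_) (by rw [hs0, sum_odd3]; rfl)
      rw [h1, odd3]; split_ifs <;> rfl

variable (hmin : ∀ x ∈ K, x ≠ 0 → 32 ≤ sqNorm x)
include hmin

theorem code_min {c : Finset GolayPt} (hc : c ∈ code K) (hne : c.Nonempty) : 8 ≤ c.card := by
  obtain ⟨y, hy, h0, e⟩ := h.exists_norm hc hne
  have := hmin y hy h0
  omega

theorem card_oct (S : Finset V) (hS : ∀ x ∈ S, x ∈ K ∧ sqNorm x = 32 ∧ x none % 2 = 0 ∧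
    ∃ i, x i % 4 = 2) : S.card ≤ 759 * 128 := by
  classical
  let O := (Set.toFinite (code K)).toFinset.filter (fun c => c.card = 8)
  have hO : O.card ≤ 759 := by
    refine card_le_759 card_golayPt (fun s hs => (mem_filter.1 hs).2) fun s hs t ht hst => ?_
    simp only [O, mem_filter, Set.Finite.mem_toFinset] at hs ht
    refine h.code_min hmin (code_symm hs.1 ht.1) ?_
    rw [nonempty_iff_ne_empty]
    exact fun e => hst (symmDiff_eq_bot.1 e)
  let cw : V → Finset GolayPt := fun x => univ.filter fun i => x i % 4 = 2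
  have key : ∀ x ∈ S, (cw x).card = 8 ∧ ∀ i, x i ^ 2 = if i ∈ cw x then 4 else 0 := by
    intro x hx
    obtain ⟨h1, h2, h3, i, hi⟩ := hS x hx
    have h4 := h.code_min hmin (h.res_mem h1 h3) ⟨i, by simp [hi]⟩
    have h5 : ∀ i ∈ (univ : Finset GolayPt), (if i ∈ cw x then (4 : ℤ) else 0) ≤ x i ^ 2 := by
      intro i _
      split_ifs with h6
      · simp only [cw, mem_filter, mem_univ, true_and] at h6
        rcases le_or_gt 2 (x i) with h7 | h7
        · nlinarith
        · have : x i ≤ -2 := by omega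
          nlinarith
      · positivity
    have h6 := sum_le_sum h5
    have h7 := sum_ite_mem_const (cw x) 4 0
    rw [sqNorm_def] at h2
    have h8 : (cw x).card = 8 := by
      change 8 ≤ (cw x).card at h4
      omega
    refine ⟨h8, fun i => ((sum_eq_sum_iff_of_le h5).1 (by omega) i (mem_univ _)).symm⟩
  let pk : Finset GolayPt → GolayPt := fun c => if hc : c.Nonempty then hc.choose else none
  have hpk : ∀ c : Finset GolayPt, c.card = 8 → pk c ∈ c := fun c hc => by
    have : c.Nonempty := card_pos.1 (by omega)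
    simp only [pk, this, dite_true]
    exact this.choose_spec
  have h1 : S.card ≤ (O.sigma fun c => (c.erase (pk c)).powerset).card := by
    refine card_le_card_of_injOn
      (fun x => ⟨cw x, ((cw x).erase (pk (cw x))).filter fun i => x i < 0⟩) (fun x hx => ?_) ?_
    · have hx' := hS x hx
      simp only [coe_sigma, Set.mem_sigma_iff, mem_coe, mem_powerset, filter_subset, and_true, O,
        mem_filter, Set.Finite.mem_toFinset]
      exact ⟨h.res_mem hx'.1 hx'.2.2.1, (key x hx).1⟩
    · intro x hx y hy e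
      simp only [Sigma.mk.inj_iff, heq_eq_eq] at e
      obtain ⟨e1, e2⟩ := e
      have k1 := (key x hx).2
      have k2 := (key y hy).2
      rw [← e1] at e2 k2
      have hp := hpk _ (key x hx).1
      generalize pk (cw x) = p at e2 hp
      have h3 : ∀ i, i ≠ p → x i = y i := by
        intro i hi
        have a1 := k1 i
        have a2 := k2 i
        have a3 := Finset.ext_iff.1 e2 i
        simp only [mem_filter, mem_erase] at a3
        split_ifs at a1 a2 with h6
        · simp only [hi, h6, ne_eq, not_false_eq_true, true_and] at a3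
          have b1 : x i = 2 ∨ x i = -2 := sq_eq_sq_iff_eq_or_eq_neg.1 (by rw [a1]; rfl)
          have b2 : y i = 2 ∨ y i = -2 := sq_eq_sq_iff_eq_or_eq_neg.1 (by rw [a2]; rfl)
          omega
        · rw [pow_eq_zero_iff two_ne_zero] at a1 a2
          rw [a1, a2]
      by_contra hxy
      have h4 := hmin _ (K.sub_mem (hS x hx).1 (hS y hy).1) (sub_ne_zero.2 hxy)
      rw [sqNorm_def, sum_eq_single p (fun i _ hi => by simp [h3 i hi]) (by simp)] at h4
      have a1 := k1 p
      have a2 := k2 p
      simp only [hp, if_true] at a1 a2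
      have b1 : x p = 2 ∨ x p = -2 := sq_eq_sq_iff_eq_or_eq_neg.1 (by rw [a1]; rfl)
      have b2 : y p = 2 ∨ y p = -2 := sq_eq_sq_iff_eq_or_eq_neg.1 (by rw [a2]; rfl)
      rw [Pi.sub_apply] at h4
      rcases b1 with b1 | b1 <;> rcases b2 with b2 | b2 <;> rw [b1, b2] at h4 <;> omega
  rw [card_sigma, sum_congr rfl (g := fun _ => 128), sum_const, smul_eq_mul] at h1
  · omega
  · intro c hc
    have := (mem_filter.1 hc).2
    rw [card_powerset, card_erase_of_mem (hpk c this), this]
    rfl

omit h hmin in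
theorem card_duad (S : Finset V) (hS : ∀ x ∈ S, sqNorm x = 32 ∧ ∀ i, x i % 4 = 0) :
    S.card ≤ 1104 := by
  classical
  let cw : V → Finset GolayPt := fun x => univ.filter fun i => x i ≠ 0
  have key : ∀ x ∈ S, (cw x).card = 2 ∧ ∀ i, x i ^ 2 = if i ∈ cw x then 16 else 0 := by
    intro x hx
    obtain ⟨h1, h2⟩ := hS x hx
    have h5 : ∀ i, x i ^ 2 = if i ∈ cw x then 16 else 0 := by
      intro i
      have h3 : x i ^ 2 ≤ 32 := h1 ▸ single_le_sum (f := fun i => x i ^ 2)
        (fun _ _ => sq_nonneg _) (mem_univ i)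
      have h4 := h2 i
      have h6 : x i < 8 := by nlinarith
      have h7 : -8 < x i := by nlinarith
      simp only [cw, mem_filter, mem_univ, true_and]
      have : x i = 0 ∨ x i = 4 ∨ x i = -4 := by omega
      rcases this with h8 | h8 | h8 <;> simp [h8]
    refine ⟨?_, h5⟩
    rw [sqNorm_def, sum_congr rfl fun i _ => h5 i, sum_ite_mem_const] at h1
    omega
  have h1 : S.card ≤ ((powersetCard 2 (univ : Finset GolayPt)).sigma fun c => c.powerset).card := by
    refine card_le_card_of_injOn
      (fun x => ⟨cw x, (cw x).filter fun i => x i < 0⟩) (fun x hx => ?_) ?_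
    · simp only [coe_sigma, Set.mem_sigma_iff, mem_coe, mem_powerset, filter_subset, and_true,
        mem_powersetCard, subset_univ, true_and]
      exact (key x hx).1
    · intro x hx y hy e
      simp only [Sigma.mk.inj_iff, heq_eq_eq] at e
      obtain ⟨e1, e2⟩ := e
      have k1 := (key x hx).2
      have k2 := (key y hy).2
      rw [← e1] at e2 k2
      funext i
      have a1 := k1 i
      have a2 := k2 i
      have a3 := Finset.ext_iff.1 e2 i
      simp only [mem_filter (s := cw x)] at a3
      split_ifs at a1 a2 with h6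
      · simp only [h6, true_and] at a3
        have b1 : x i = 4 ∨ x i = -4 := sq_eq_sq_iff_eq_or_eq_neg.1 (by rw [a1]; rfl)
        have b2 : y i = 4 ∨ y i = -4 := sq_eq_sq_iff_eq_or_eq_neg.1 (by rw [a2]; rfl)
        omega
      · rw [pow_eq_zero_iff two_ne_zero] at a1 a2
        rw [a1, a2]
  rw [card_sigma, sum_congr rfl (g := fun _ => 4), sum_const, smul_eq_mul, card_powersetCard,
    card_univ, card_golayPt] at h1
  · exact h1
  · intro c hc
    rw [card_powerset, (mem_powersetCard.1 hc).2]
    rfl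

omit hmin in
theorem card_odd (S : Finset V) (hS : ∀ x ∈ S, x ∈ K ∧ sqNorm x = 32 ∧ x none % 2 = 1) :
    S.card ≤ 24 * (code K).ncard := by
  classical
  rcases S.eq_empty_or_nonempty with rfl | ⟨x₀, hx₀⟩
  · simp
  have key : ∀ x ∈ S, ∃ p, x p ^ 2 = 9 ∧ ∀ i, i ≠ p → x i ^ 2 = 1 := by
    intro x hx
    obtain ⟨h1, h2, h3⟩ := hS x hx
    have h4 : ∀ i, x i ^ 2 = 1 ∨ 9 ≤ x i ^ 2 := by
      intro i
      have := h.parity h1 i none
      rcases le_or_gt 3 (x i) with h5 | h5
      · right; nlinarith
      rcases le_or_gt (x i) (-3) with h6 | h6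
      · right; nlinarith
      left
      have : x i = 1 ∨ x i = -1 := by omega
      rcases this with h7 | h7 <;> simp [h7]
    obtain ⟨p, hp⟩ : ∃ p, 9 ≤ x p ^ 2 := by
      by_contra h5
      rw [sqNorm_def, sum_congr rfl fun i _ => (h4 i).resolve_right fun h6 => h5 ⟨i, h6⟩,
        sum_const, card_univ, card_golayPt] at h2
      simp at h2
    have h5 : ∀ i ∈ (univ : Finset GolayPt), 1 + sg p 8 i ≤ x i ^ 2 := by
      intro i _
      unfold sg
      split_ifs with h6
      · rw [h6]; omega
      · have := h4 i; omega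
    have h6 := (sum_eq_sum_iff_of_le h5).1 (by
      rw [sum_add_distrib, sum_sg, sum_const, card_univ, card_golayPt, ← sqNorm_def, h2]; rfl)
    refine ⟨p, ?_, fun i hi => ?_⟩
    · rw [← h6 p (mem_univ _)]; simp [sg]
    · rw [← h6 i (mem_univ _)]; simp [sg, hi]
  choose! pk hpk using key
  have h1 : S.card ≤ ((univ : Finset GolayPt) ×ˢ (Set.toFinite (code K)).toFinset).card := by
    refine card_le_card_of_injOn
      (fun x => ⟨pk x, univ.filter fun i => (x - x₀) i % 4 = 2⟩) (fun x hx => ?_) ?_
    · simp only [coe_product, Set.mem_prod, mem_coe, mem_univ, true_and, Set.Finite.mem_toFinset]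
      refine h.res_mem (K.sub_mem (hS x hx).1 (hS x₀ hx₀).1) ?_
      have := (hS x hx).2.2
      have := (hS x₀ hx₀).2.2
      rw [Pi.sub_apply]; omega
    · intro x hx y hy e
      simp only [Prod.mk.injEq] at e
      obtain ⟨e1, e2⟩ := e
      have k1 := hpk x hx
      have k2 := hpk y hy
      rw [← e1] at k2
      funext i
      have a3 := Finset.ext_iff.1 e2 i
      simp only [mem_filter, mem_univ, true_and, Pi.sub_apply] at a3
      have a4 := h.parity (hS x₀ hx₀).1 i none
      have a5 := (hS x₀ hx₀).2.2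
      by_cases hi : i = pk x
      · rw [← hi] at k1 k2
        have b1 : x i = 3 ∨ x i = -3 := sq_eq_sq_iff_eq_or_eq_neg.1 (by rw [k1.1]; rfl)
        have b2 : y i = 3 ∨ y i = -3 := sq_eq_sq_iff_eq_or_eq_neg.1 (by rw [k2.1]; rfl)
        omega
      · have b1 : x i = 1 ∨ x i = -1 := sq_eq_sq_iff_eq_or_eq_neg.1 (by rw [k1.2 i hi]; rfl)
        have b2 : y i = 1 ∨ y i = -1 := sq_eq_sq_iff_eq_or_eq_neg.1 (by rw [k2.2 i hi]; rfl)
        omega
  rwa [card_product, card_univ, card_golayPt, ← Set.ncard_eq_toFinset_card] at h1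

theorem golayLike (S : Finset V) (hS : ∀ x ∈ S, x ∈ K ∧ sqNorm x = 32) (hc : S.card = 196560) :
    GolayLike (code K) ∧ ∃ x ∈ K, x none % 2 = 1 := by
  classical
  have hne : ∀ s ∈ code K, s.card ≠ 4 := fun s hs e => by
    have := h.code_min hmin hs (card_pos.1 (by omega))
    omega
  have h0 := ncard_le_4096 card_golayPt (fun s hs t ht => code_symm hs ht)
    (fun s hs => h.code_dvd hs) hne
  have e1 := card_filter_add_card_filter_not (s := S) (fun x => x none % 2 = 1)
  have e2 := card_filter_add_card_filter_not (s := S.filter fun x => ¬ x none % 2 = 1)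
    (fun x => ∃ i, x i % 4 = 2)
  have h1 := h.card_odd (S.filter fun x => x none % 2 = 1) fun x hx =>
    ⟨(hS x (mem_filter.1 hx).1).1, (hS x (mem_filter.1 hx).1).2, (mem_filter.1 hx).2⟩
  have h2 := h.card_oct hmin ((S.filter fun x => ¬ x none % 2 = 1).filter
    fun x => ∃ i, x i % 4 = 2) fun x hx => by
      simp only [mem_filter] at hx
      exact ⟨(hS x hx.1.1).1, (hS x hx.1.1).2, by omega, hx.2⟩
  have h3 := card_duad ((S.filter fun x => ¬ x none % 2 = 1).filter
    fun x => ¬ ∃ i, x i % 4 = 2) fun x hx => by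
      simp only [mem_filter, not_exists] at hx
      refine ⟨(hS x hx.1.1).2, fun i => ?_⟩
      have := h.parity (hS x hx.1.1).1 i none
      have := hx.2 i
      omega
  refine ⟨⟨card_golayPt, fun s hs t ht => code_symm hs ht, by omega, fun s hs => h.code_dvd hs,
    hne⟩, ?_⟩
  obtain ⟨x, hx⟩ := card_pos.1 (show 0 < (S.filter fun x => x none % 2 = 1).card by omega)
  exact ⟨x, (hS x (mem_filter.1 hx).1).1, (mem_filter.1 hx).2⟩

/-- the main recognition theorem -/
theorem exists_iso (S : Finset V) (hS : ∀ x ∈ S, x ∈ K ∧ sqNorm x = 32) (hc : S.card = 196560) :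
    ∃ T : V ≃+ V, (∀ x, sqNorm (T x) = sqNorm x) ∧ K.map T.toAddMonoidHom = leechLattice := by
  classical
  obtain ⟨hG, x₀, hx₀, h1⟩ := h.golayLike hmin S hS hc
  have h2 : GolayLike GC := by
    refine ⟨card_golayPt, fun s hs t ht => symmDiff_mem_GC hs ht, ncard_GC_eq, ?_, ?_⟩
    · intro s hs
      have := card_of_mem_GC hs
      omega
    · intro s hs
      have := card_of_mem_GC hs
      omega
  obtain ⟨e, he⟩ := hG.iso h2
  let ε : GolayPt → ℤ := fun i => if x₀ i % 4 = 1 then 1 else -1
  have hε : ∀ i, ε i = 1 ∨ ε i = -1 := fun i => by simp only [ε]; split_ifs <;> simp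
  have hε2 : ∀ i, ε i * ε i = 1 := fun i => by rcases hε i with h | h <;> simp [h]
  let T : V ≃+ V :=
    { toFun := fun x p => ε (e.symm p) * x (e.symm p)
      invFun := fun y i => ε i * y (e i)
      left_inv := fun x => by funext i; simp [← mul_assoc, hε2]
      right_inv := fun y => by funext i; simp [← mul_assoc, hε2]
      map_add' := fun x y => by funext i; simp [mul_add] }
  have hT : ∀ x p, T x p = ε (e.symm p) * x (e.symm p) := fun _ _ => rfl
  have hT' : ∀ y i, T.symm y i = ε i * y (e i) := fun _ _ => rfl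
  have hN : ∀ x, sqNorm (T x) = sqNorm x := by
    intro x
    simp only [sqNorm_def, hT]
    rw [← Equiv.sum_comp e.symm (fun i => x i ^ 2)]
    refine sum_congr rfl fun i _ => ?_
    rw [mul_pow, sq (ε _), hε2, one_mul]
  have hmem : ∀ y, y ∈ K.map T.toAddMonoidHom ↔ T.symm y ∈ K := fun y => AddSubgroup.mem_map_equiv
  have hL : LL (K.map T.toAddMonoidHom) := by
    constructor
    · rintro _ ⟨x, hx, rfl⟩
      exact (hN x).symm ▸ h.d16 x hx
    · intro y h4 h8
      rw [hmem]
      refine h.four _ (fun i => ?_) ?_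
      · have := h4 (e i)
        rw [hT']
        rcases hε i with h | h <;> rw [h] <;> omega
      · rw [← h8, ← Equiv.sum_comp e y]
        refine sum_emod_congr _ _ _ _ fun i _ => ?_
        have := h4 (e i)
        rw [hT']
        rcases hε i with h | h <;> rw [h] <;> omega
  refine ⟨T, hN, hL.eq_leech ?_ (x₀ := T x₀) ⟨x₀, hx₀, rfl⟩ fun p => ?_⟩
  · rw [← he]
    ext c
    rw [mem_mapSys]
    constructor
    · rintro ⟨_, ⟨x, hx, rfl⟩, hxc⟩
      refine ⟨x, hx, fun i => ?_⟩
      have := hxc (e i)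
      change T x (e i) % 4 = _ at this
      rw [hT, Equiv.symm_apply_apply] at this
      have e1 : i ∈ c.image e.symm ↔ e i ∈ c := by
        simp only [mem_image]
        exact ⟨by rintro ⟨a, ha, rfl⟩; simpa using ha, fun h => ⟨_, h, by simp⟩⟩
      simp only [e1]
      rcases hε i with h | h <;> rw [h] at this <;> split_ifs at this ⊢ <;> omega
    · rintro ⟨x, hx, hxc⟩
      refine ⟨T x, ⟨x, hx, rfl⟩, fun p => ?_⟩
      have := hxc (e.symm p)
      simp only [e.symm.injective.mem_finset_image] at this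
      rw [hT]
      rcases hε (e.symm p) with h | h <;> rw [h] <;> split_ifs at this ⊢ <;> omega
  · have := h.parity hx₀ (e.symm p) none
    rw [hT]
    simp only [ε]
    split_ifs <;> omega

end LL

end Cfsg.Agent.H2.Leech
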