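import Cfsg.Agent.H2.Sharp

/-! Simplicity of groups with the order and the transitivity of the large Mathieu groups. -/

set_option autoImplicit false

namespace Cfsg.Agent.H2

open MulAction Subgroup

variable {G α : Type*} [Group G] [MulAction G α]

theorem faithful_ofStabilizer [FaithfulSMul G α] (a : α) :
    FaithfulSMul (stabilizer G a) (SubMulAction.ofStabilizer G a) := by
  refine ⟨fun {g g'} h => Subtype.ext (FaithfulSMul.eq_of_smul_eq_smul (α := α) fun x => ?_)⟩
  by_cases hx : x = a
  · subst hx
    rw [g.2, g'.2]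
  · exact congrArg Subtype.val (h ⟨x, hx⟩)

theorem simple_23 [FaithfulSMul G α] [IsPretransitive G α] (hα : Nat.card α = 23)
    (hG : Nat.card G = 10200960) : IsSimpleGroup G := by
  have : Finite G := Nat.finite_of_card_ne_zero (by rw [hG]; decide)
  have : Fact (Nat.Prime 23) := ⟨by norm_num⟩
  refine simple_of_prime_degree (α := α) (r := 11) (m := 443520) hα (by rw [hG])
    (by decide) (by norm_num) (by norm_num) ?_
  intro n s e1 e2 e3
  have hr : s ≤ 22 := Nat.le_of_dvd (by norm_num) e3
  unfold Nat.ModEq at e2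
  interval_cases s <;> omega

theorem simple_24 [FaithfulSMul G α] [h2 : IsMultiplyPretransitive G α 2] (hα : Nat.card α = 24)
    (hG : Nat.card G = 244823040) : IsSimpleGroup G := by
  have : Finite α := Nat.finite_of_card_ne_zero (by rw [hα]; decide)
  have := isPreprimitive_of_is_two_pretransitive h2
  obtain ⟨a⟩ : Nonempty α := (Nat.card_ne_zero.1 (by rw [hα]; decide)).1
  have h3 := SubMulAction.nat_card_ofStabilizer_add_one_eq G a
  have h4 := card_eq_card_mul_stabilizer (G := G) a
  have := faithful_ofStabilizer (G := G) a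
  have h5 : IsMultiplyPretransitive (stabilizer G a) (SubMulAction.ofStabilizer G a) 1 :=
    SubMulAction.ofStabilizer.isMultiplyPretransitive.1 h2
  have := is_one_pretransitive_iff.1 h5
  have := simple_23 (G := stabilizer G a) (α := SubMulAction.ofStabilizer G a) (by omega)
    (by rw [hG, hα] at h4; omega)
  refine simple_of_stabilizer_simple a (no_regular_normal_of_two_trans a
    (two_trans_of_multiplyPretransitive (k := 2) le_rfl (by omega) a)
    Nat.prime_two Nat.prime_three (by norm_num) (by rw [hα]; decide) (by rw [hα]; decide))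

section Chapman

variable {p : ℕ} [hp : Fact p.Prime]

theorem sylow_data_of_selfcentralizing [Finite G] {m : ℕ}
    (hG : Nat.card G = p * m) (hm : ¬ p ∣ m) (Q : Subgroup G) (hQ : Nat.card Q = p)
    (hCQ : centralizer (Q : Set G) ≤ Q) :
    ∃ n r, m = n * r ∧ n ≡ 1 [MOD p] ∧ r ∣ p - 1 ∧
      Nat.card (normalizer (Q : Set G)) = p * r := by
  have hcyc : IsCyclic Q := isCyclic_of_prime_card hQ
  have hC : centralizer (Q : Set G) = Q := by
    refine le_antisymm hCQ ?_
    have := hcyc.isMulCommutative
    exact Q.le_centralizer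
  have hr := card_dvd_of_injective _ (QuotientGroup.kerLift_injective Q.normalizerMonoidHom)
  rw [normalizerMonoidHom_ker, ← index, hcyc.card_mulAut, hQ, Nat.totient_prime hp.out, hC] at hr
  have hN := (card_mul_index (Q.subgroupOf (normalizer (Q : Set G)))).symm
  rw [Nat.card_congr (subgroupOfEquivOfLe le_normalizer).toEquiv, hQ] at hN
  have hi : Q.index = m := by
    have := card_mul_index Q
    rw [hQ, hG] at this
    exact Nat.eq_of_mul_eq_mul_left hp.out.pos this
  have hpQ : IsPGroup p Q := IsPGroup.of_card (n := 1) (by rw [hQ, pow_one])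
  let P : Sylow p G := hpQ.toSylow (hi ▸ hm)
  have h1 := card_sylow_modEq_one p G
  rw [P.card_eq_index_normalizer] at h1
  have h2 := card_mul_index (normalizer (Q : Set G))
  rw [hN, hG, mul_assoc] at h2
  refine ⟨_, _, ?_, h1, hr, hN⟩
  rw [mul_comm]
  exact (Nat.eq_of_mul_eq_mul_left hp.out.pos h2).symm

/-- Chapman's simplicity criterion for primitive groups with a self-centralizing Sylow subgroup
of prime order dividing the degree. -/
theorem simple_of_selfcentralizing [Finite G] [FaithfulSMul G α] [IsPreprimitive G α] [Nonempty α]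
    (hα : p ∣ Nat.card α) {m r : ℕ}
    (hG : Nat.card G = p * m) (hm : ¬ p ∣ m) (hr : r.Prime) (hmr : m ≠ r)
    (hC : ∀ Q : Subgroup G, Nat.card Q = p → centralizer (Q : Set G) ≤ Q)
    (hnum : ∀ n s, m = n * s → n ≡ 1 [MOD p] → s ∣ p - 1 → s = r) : IsSimpleGroup G := by
  have : Nontrivial G := by
    rw [← Finite.one_lt_card_iff_nontrivial, hG]
    have := hp.out.one_lt
    have : 0 < m := Nat.pos_of_ne_zero (by rintro rfl; exact hm (dvd_zero _))
    nlinarith
  refine ⟨fun H hH => ?_⟩
  by_cases h : H = ⊥
  · exact Or.inl h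
  right
  have ht := normal_pretransitive (α := α) H h
  have hpH : p ∣ Nat.card H := hα.trans (card_dvd_of_pretransitive (G := H) (α := α))
  obtain ⟨m', hm'⟩ := hpH
  have hm'm : m' ∣ m := by
    have := card_subgroup_dvd_card H
    rw [hm', hG] at this
    exact Nat.dvd_of_mul_dvd_mul_left hp.out.pos this
  have hpm' : ¬ p ∣ m' := fun e => hm (e.trans hm'm)
  obtain ⟨Q', hQ'⟩ := exists_subgroup_card_prime (G := H) (p := p) ⟨m', hm'⟩
  have hi : Q'.index = m' := by
    have := card_mul_index Q'
    rw [hQ', hm'] at this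
    exact Nat.eq_of_mul_eq_mul_left hp.out.pos this
  have hpQ : IsPGroup p Q' := IsPGroup.of_card (n := 1) (by rw [hQ', pow_one])
  let P : Sylow p H := hpQ.toSylow (hi ▸ hpm')
  have hfr := P.normalizer_sup_eq_top
  set Q : Subgroup G := Q'.map H.subtype with hQdef
  have hQ : Nat.card Q = p := by rw [hQdef, card_map_of_injective H.subtype_injective, hQ']
  obtain ⟨n, s, e1, e2, e3, e4⟩ := sylow_data_of_selfcentralizing hG hm Q hQ (hC Q hQ)
  obtain rfl := hnum n s e1 e2 e3
  change normalizer (Q : Set G) ⊔ H = ⊤ at hfr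
  have hQH : Q ≤ H := map_subtype_le _
  have hK1 : Nat.card (normalizer (Q : Set G) ⊓ H : Subgroup G) ∣ p * s :=
    e4 ▸ card_dvd_of_le inf_le_left
  have hK2 : p ∣ Nat.card (normalizer (Q : Set G) ⊓ H : Subgroup G) :=
    hQ ▸ card_dvd_of_le (le_inf le_normalizer hQH)
  obtain ⟨u, hu⟩ := hK2
  rw [hu] at hK1
  rcases (Nat.dvd_prime hr).1 (Nat.dvd_of_mul_dvd_mul_left hp.out.pos hK1) with h1 | h1
  · exfalso
    have hKQ : Q = normalizer (Q : Set G) ⊓ H := by
      apply eq_of_le_of_card_ge (le_inf le_normalizer hQH)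
      rw [hu, h1, hQ, mul_one]
    have hNP : normalizer (P : Set H) ≤ centralizer (P : Set H) := by
      intro x hx
      have hx' : (x : G) ∈ normalizer (Q : Set G) := by
        have := Subgroup.le_normalizer_map (H := Q') H.subtype
        exact this ⟨x, hx, rfl⟩
      have hxQ : (x : G) ∈ Q := hKQ ▸ (⟨hx', x.2⟩ : (x : G) ∈ normalizer (Q : Set G) ⊓ H)
      obtain ⟨y, hy, hyx⟩ := hxQ
      have : y = x := Subtype.ext hyx
      subst this
      have hcyc : IsCyclic Q' := isCyclic_of_prime_card hQ'
      have := hcyc.isMulCommutative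
      exact Q'.le_centralizer hy
    have hc := MonoidHom.ker_transferSylow_isComplement' P hNP
    have hnd := MonoidHom.not_dvd_card_ker_transferSylow P hNP
    set φ := MonoidHom.transferSylow P hNP
    have hKn : (φ.ker.map H.subtype).Normal := by
      refine ⟨?_⟩
      rintro _ ⟨x, hx, rfl⟩ g
      refine ⟨MulAut.conjNormal g x, ?_, rfl⟩
      have o1 : orderOf (φ (MulAut.conjNormal g x)) ∣ Nat.card φ.ker := by
        refine (orderOf_map_dvd _ _).trans ?_
        rw [MulEquiv.orderOf_eq]
        exact Subgroup.orderOf_dvd_natCard _ hx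
      have o2 : orderOf (φ (MulAut.conjNormal g x)) ∣ p := by
        have := orderOf_dvd_natCard (φ (MulAut.conjNormal g x))
        exact this.trans (dvd_of_eq hQ')
      rcases (Nat.dvd_prime hp.out).1 o2 with o3 | o3
      · exact orderOf_eq_one_iff.1 o3
      · rw [o3] at o1
        exact absurd o1 hnd
    have hker : φ.ker = ⊥ := by
      by_contra hk
      have hk' : φ.ker.map H.subtype ≠ ⊥ := by
        rwa [Ne, map_eq_bot_iff_of_injective _ H.subtype_injective]
      have := normal_pretransitive (α := α) _ hk'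
      have h5 := card_dvd_of_pretransitive (G := φ.ker.map H.subtype) (α := α)
      rw [card_map_of_injective H.subtype_injective] at h5
      exact hnd (hα.trans h5)
    have hcm := hc.card_mul_card
    rw [hker, Subgroup.card_bot, one_mul] at hcm
    have hQeq : Q = H := by
      apply eq_of_le_of_card_ge hQH
      rw [← hcm, hQ]
      exact hQ'.le
    have : normalizer (Q : Set G) = ⊤ := by
      rw [hQeq]; exact normalizer_eq_top H
    rw [this, Subgroup.card_top, hG] at e4
    exact hmr (Nat.eq_of_mul_eq_mul_left hp.out.pos e4)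
  · have hKQ : normalizer (Q : Set G) ⊓ H = normalizer (Q : Set G) := by
      apply eq_of_le_of_card_ge inf_le_left
      rw [hu, h1, e4]
    rw [inf_eq_left] at hKQ
    rwa [sup_eq_right.2 hKQ] at hfr

end Chapman

theorem simple_22 [Fintype α] [DecidableEq α] [FaithfulSMul G α]
    [h2 : IsMultiplyPretransitive G α 2] (hα : Fintype.card α = 22)
    (hG : Nat.card G = 443520) (hev : ∀ g : G, Equiv.Perm.sign (MulAction.toPerm g : Equiv.Perm α) = 1) :
    IsSimpleGroup G := by
  have : Finite G := Nat.finite_of_card_ne_zero (by rw [hG]; decide)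
  have := isPreprimitive_of_is_two_pretransitive h2
  have hα' : Nat.card α = 22 := by rw [Nat.card_eq_fintype_card, hα]
  have : Nonempty α := (Nat.card_ne_zero.1 (by rw [hα']; decide)).1
  have : Fact (Nat.Prime 11) := ⟨by norm_num⟩
  refine simple_of_selfcentralizing (α := α) (p := 11) (r := 5) (m := 40320)
    (by rw [hα']; decide) (by rw [hG]) (by decide) (by norm_num) (by norm_num) ?_ ?_
  · intro Q hQ
    have hcyc : IsCyclic Q := isCyclic_of_prime_card hQ
    have hQC : Q ≤ centralizer (Q : Set G) := by
      have := hcyc.isMulCommutative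
      exact Q.le_centralizer
    by_contra hne
    obtain ⟨c, hc⟩ := card_dvd_of_le hQC
    rw [hQ] at hc
    have hc1 : c ≠ 1 := by
      rintro rfl
      exact hne (eq_of_le_of_card_ge hQC (by rw [hc, hQ])).ge
    have hc2 : c ∣ 40320 := by
      have := card_subgroup_dvd_card (centralizer (Q : Set G))
      rw [hc, hG] at this
      exact Nat.dvd_of_mul_dvd_mul_left (by norm_num : 0 < 11) this
    obtain ⟨q, hq, hqc⟩ := Nat.exists_prime_and_dvd hc1
    have hq11 : q ≠ 11 := by
      rintro rfl
      exact absurd (hqc.trans hc2) (by decide)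
    have := Fact.mk hq
    obtain ⟨x, hx⟩ := exists_prime_orderOf_dvd_card' (G := centralizer (Q : Set G)) q
      (by rw [hc]; exact Dvd.dvd.mul_left hqc _)
    obtain ⟨s, hs⟩ := exists_prime_orderOf_dvd_card' (G := Q) 11 (by rw [hQ])
    have hsx : (s : G) * x = x * s := x.2 s s.2
    have hsfix : ∀ a : α, (s : G) • a ≠ a := by
      intro a ha
      have h4 := card_eq_card_mul_stabilizer (G := G) a
      have h5 := Subgroup.orderOf_dvd_natCard (stabilizer G a) (mem_stabilizer_iff.2 ha)
      rw [Subgroup.orderOf_coe, hs] at h5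
      rw [hG, hα'] at h4
      omega
    let ξ : Equiv.Perm α := MulAction.toPermHom G α x
    let σ : Equiv.Perm α := MulAction.toPermHom G α s
    have hξq : ξ ^ q ^ 1 = 1 := by
      rw [pow_one, ← map_pow, ← hx, ← Subgroup.orderOf_coe, pow_orderOf_eq_one, map_one]
    have hσq : σ ^ 11 ^ 1 = 1 := by
      rw [pow_one, ← map_pow, ← hs, ← Subgroup.orderOf_coe, pow_orderOf_eq_one, map_one]
    have m1 := Equiv.Perm.card_compl_support_modEq hξq
    have m2 : 11 ∣ Fintype.card {a // ξ a = a} := by
      by_contra h11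
      have hinv : ∀ a, ξ (σ a) = σ a ↔ ξ a = a := by
        intro a
        change (x : G) • (s : G) • a = (s : G) • a ↔ (x : G) • a = a
        rw [← mul_smul, ← hsx, mul_smul, smul_left_cancel_iff]
      obtain ⟨a, ha⟩ := Equiv.Perm.exists_fixed_point_of_prime (n := 1) h11
        (σ := σ.subtypePerm hinv) (by
          rw [Equiv.Perm.subtypePerm_pow, Equiv.Perm.ext_iff]
          intro a
          apply Subtype.ext
          change (σ ^ 11 ^ 1) a = a
          rw [hσq]; rfl)
      exact hsfix a (congrArg Subtype.val ha)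
    have m3 : Fintype.card {a // ξ a = a} = ξ.supportᶜ.card := by
      rw [Fintype.card_subtype]
      congr 1
      ext a
      simp
    have m4 : ξ.supportᶜ.card < 22 := by
      rw [← hα]
      apply Finset.card_lt_univ_of_notMem (x := Classical.choose (?_ : ∃ a, a ∉ ξ.supportᶜ))
      · exact Classical.choose_spec (p := fun a => a ∉ ξ.supportᶜ) _
      · by_contra hcon
        push Not at hcon
        have : (x : G) = 1 := FaithfulSMul.eq_of_smul_eq_smul (α := α) fun a => by
          have h7 : ξ a = a := by simpa using hcon a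
          rw [one_smul]; exact h7
        rw [← Subgroup.orderOf_coe, this, orderOf_one] at hx
        exact hq.one_lt.ne hx
    rw [m3] at m2
    rw [hα] at m1
    have m5 : ξ.supportᶜ.card = 0 ∨ ξ.supportᶜ.card = 11 := by omega
    rcases m5 with m5 | m5
    · rw [m5] at m1
      have : q ∣ 2 * 11 := (Nat.modEq_zero_iff_dvd.1 m1.symm)
      rcases (Nat.Prime.dvd_mul hq).1 this with h | h
      · have := (Nat.prime_dvd_prime_iff_eq hq Nat.prime_two).1 h
        subst this
        have s1 := Equiv.Perm.sign_of_pow_two_eq_one (σ := ξ) (by simpa using hξq)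
        have s2 : Equiv.Perm.sign ξ = 1 := hev x
        have s3 : Fintype.card (Function.fixedPoints ξ) = 0 := by
          rw [← m5, ← m3]; rfl
        rw [s2, s3, hα] at s1
        exact absurd s1 (by decide)
      · exact hq11 ((Nat.prime_dvd_prime_iff_eq hq (by norm_num)).1 h)
    · rw [m5] at m1
      have : q ∣ 22 - 11 := (Nat.modEq_iff_dvd' (by norm_num)).1 m1
      exact hq11 ((Nat.prime_dvd_prime_iff_eq hq (by norm_num)).1 this)
  · intro n s e1 e2 e3
    have hr : s ≤ 10 := Nat.le_of_dvd (by norm_num) e3
    unfold Nat.ModEq at e2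
    interval_cases s <;> omega

end Cfsg.Agent.H2
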