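import Cfsg.Agent.H2.D22
import Cfsg.Agent.H2.Mathieu

/-! The group of S(3,6,22) and its simple subgroup of index 2. -/

set_option autoImplicit false

namespace Cfsg.Agent.H2

open MulAction Chk
open scoped Pointwise

theorem index_ker_units {G : Type*} [Group G] (s : G →* ℤˣ) {τ : G} (hτ : s τ = -1) :
    s.ker.index = 2 := by
  rw [Subgroup.index_ker]
  have : s.range = ⊤ := by
    rw [eq_top_iff]
    intro u _
    rcases Int.units_eq_one_or u with rfl | rfl
    · exact one_mem _
    · exact ⟨τ, hτ⟩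
  rw [this, Subgroup.card_top, Nat.card_eq_fintype_card, Fintype.card_units_int]

theorem pretransitive_ker_units {G X : Type*} [Group G] [MulAction G X] [IsPretransitive G X]
    (s : G →* ℤˣ) {τ : G} (hτ : s τ = -1) {x : X} (hx : τ • x = x) : IsPretransitive s.ker X := by
  rw [isPretransitive_iff_orbit_eq_univ x, Set.eq_univ_iff_forall]
  intro y
  obtain ⟨g, rfl⟩ := exists_smul_eq G x y
  rcases Int.units_eq_one_or (s g) with h | h
  · exact ⟨⟨g, h⟩, rfl⟩
  · refine ⟨⟨g * τ, ?_⟩, ?_⟩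
    · rw [MonoidHom.mem_ker, map_mul, h, hτ]; simp
    · change (g * τ) • x = g • x
      rw [mul_smul, hx]

/-- an odd involution in the group of the model design -/
def tau : Equiv.Perm (Fin 22) :=
  Equiv.swap 4 5 * Equiv.swap 8 9 * Equiv.swap 10 11 * Equiv.swap 14 21 * Equiv.swap 15 20 *
    Equiv.swap 16 19 * Equiv.swap 17 18

theorem sign_tau : Equiv.Perm.sign tau = -1 := by
  simp only [tau, Equiv.Perm.sign_mul]
  repeat rw [Equiv.Perm.sign_swap (by decide)]
  decide

theorem tau_code : (List.range 22).map (gv tau) =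
    [0, 1, 2, 3, 5, 4, 6, 7, 9, 8, 11, 10, 12, 13, 21, 20, 19, 18, 17, 16, 15, 14] := by
  decide +kernel

theorem tau_mem (hS : IsSteinerSystem 3 6 (sys 22 D22.L0)) : tau ∈ setSystemAut (sys 22 D22.L0) :=
  aut_of_autOK hS D22.det (by rw [tau_code]; decide +kernel)

theorem tau_sq : tau ^ 2 = 1 := by
  ext x; revert x; decide +kernel

theorem tau_fixed_blocks : {b | b ∈ sys 22 D22.L0 ∧ tau • b = b}.ncard = 21 := by
  let Lf : List ℕ := [983088, 1475328, 2704128, 3194928, 1674240, 3888, 2117770, 12528, 1089610,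
    401545, 2509824, 598150, 1085573, 593993, 2121797, 397382, 13068, 3276, 15363, 963, 63]
  let l : List ℕ := [0, 1, 2, 3, 5, 4, 6, 7, 9, 8, 11, 10, 12, 13, 21, 20, 19, 18, 17, 16, 15, 14]
  have h1 : al Lf (fun m => el D22.L0 m && Nat.beq (img l (bitsOf 22 m)) m) = true := by
    decide +kernel
  have h2 : al D22.L0 (fun m => el Lf m || (!Nat.beq (img l (bitsOf 22 m)) m &&
      Nat.blt (img l (bitsOf 22 m)) (2 ^ 22) && Nat.blt m (2 ^ 22))) = true := by
    decide +kernel
  have h3 : ∀ m, toF 22 (img l (bitsOf 22 m)) = tau • toF 22 m := fun m => by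
    rw [← toF_img, tau_code]
  have : {b | b ∈ sys 22 D22.L0 ∧ tau • b = b} = sys 22 Lf := by
    simp only [al_iff, Bool.and_eq_true, Bool.or_eq_true, Nat.beq_eq, Nat.blt_eq,
      Bool.not_eq_true'] at h1 h2
    ext b
    constructor
    · rintro ⟨⟨m, hm, rfl⟩, e⟩
      rcases h2 m hm with h | ⟨⟨h4, h5⟩, h6⟩
      · exact ⟨m, mem_of_el h, rfl⟩
      · rw [← h3] at e
        exact absurd (toF_injOn h5 h6 e) (Nat.ne_of_beq_eq_false h4)
    · rintro ⟨m, hm, rfl⟩
      obtain ⟨h4, h5⟩ := h1 m hm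
      exact ⟨⟨m, mem_of_el h4, rfl⟩, by rw [← h3, h5]⟩
  rw [this, ncard_sys (by decide +kernel) (by decide +kernel)]
  rfl

variable {α : Type*} [Fintype α] [DecidableEq α] {B : Set (Finset α)}

/-- the sign on the group of a set system -/
def sgnAut (B : Set (Finset α)) : setSystemAut B →* ℤˣ :=
  Equiv.Perm.sign.comp (setSystemAut B).subtype

theorem card_aut_22 (hα : Fintype.card α = 22) (hB : IsSteinerSystem 3 6 B) :
    Nat.card (setSystemAut B) = 887040 := by
  rw [D22.strong.card_aut (by norm_num) D22.card_stab hα hB]; decide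

theorem exists_odd_22 (hα : Fintype.card α = 22) (hB : IsSteinerSystem 3 6 B) :
    ∃ (τ : setSystemAut B) (x : Fin 3 ↪ α), sgnAut B τ = -1 ∧ τ • x = x := by
  obtain ⟨e, he⟩ := D22.strong.exists_equiv' hα hB
  have hS : IsSteinerSystem 3 6 (sys 22 D22.L0) := he ▸ steiner_mapSys hB e
  refine ⟨autEquiv (mapSys_symm he) ⟨tau, tau_mem hS⟩,
    (Fin.castLEEmb (by norm_num : 3 ≤ 22)).trans e.symm.toEmbedding, ?_, ?_⟩
  · change Equiv.Perm.sign (e.symm.permCongr tau) = -1
    rw [Equiv.Perm.sign_permCongr, sign_tau]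
  · ext i
    refine (autEquiv_smul (mapSys_symm he) _ _).trans (congrArg e.symm ?_)
    change tau _ = _
    revert i; decide +kernel

theorem m22_facts (hα : Fintype.card α = 22) (hB : IsSteinerSystem 3 6 B) :
    (sgnAut B).ker.index = 2 ∧ IsMultiplyPretransitive (sgnAut B).ker α 3 ∧
      Nat.card (sgnAut B).ker = 443520 ∧ IsSimpleGroup (sgnAut B).ker := by
  obtain ⟨τ, x, h1, h2⟩ := exists_odd_22 hα hB
  have h3 := D22.strong.multiplyPretransitive hα (by norm_num) hB
  have h4 := index_ker_units _ h1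
  have h5 : IsMultiplyPretransitive (sgnAut B).ker α 3 :=
    @pretransitive_ker_units _ (Fin 3 ↪ α) _ _ h3 _ _ h1 _ h2
  have h6 : Nat.card (sgnAut B).ker = 443520 := by
    have := (sgnAut B).ker.card_mul_index
    rw [h4, card_aut_22 hα hB] at this
    omega
  have h7 : IsMultiplyPretransitive (sgnAut B).ker α 2 :=
    isMultiplyPretransitive_of_le (n := 3) (by norm_num)
      (by rw [Nat.card_eq_fintype_card, hα]; norm_num)
  exact ⟨h4, h5, h6, simple_22 hα h6 fun g => g.2⟩

end Cfsg.Agent.H2
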