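import Cfsg.Agent.H2.PermSimple

/-! Sharply `k`-transitive actions and Jordan's theorem. -/

set_option autoImplicit false

namespace Cfsg.Agent.H2

open MulAction Subgroup Function

/-- sharply `k`-transitive action -/
def Sharp (G α : Type*) [Group G] [MulAction G α] (k : ℕ) : Prop :=
  ∀ x y : Fin k → α, Injective x → Injective y → ∃! g : G, ∀ i, g • x i = y i

variable {G α : Type*} [Group G] [MulAction G α]

theorem sharp_of {k : ℕ} [h : IsMultiplyPretransitive G α k]
    (hsharp : ∀ x : Fin k ↪ α, stabilizer G x = ⊥) : Sharp G α k := by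
  intro x y hx hy
  obtain ⟨g, hg⟩ := exists_smul_eq G (⟨x, hx⟩ : Fin k ↪ α) ⟨y, hy⟩
  have hg' : ∀ i, g • x i = y i := fun i => by
    have := DFunLike.congr_fun hg i
    simpa using this
  refine ⟨g, hg', fun g' h' => ?_⟩
  have : g⁻¹ * g' ∈ stabilizer G (⟨x, hx⟩ : Fin k ↪ α) := by
    rw [mem_stabilizer_iff]
    ext i
    simp [mul_smul, h', ← hg']
  rw [hsharp, Subgroup.mem_bot, inv_mul_eq_one] at this
  exact this.symm

theorem Sharp.multiplyPretransitive {k : ℕ} (h : Sharp G α k) : IsMultiplyPretransitive G α k := by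
  refine ⟨fun x y => ?_⟩
  obtain ⟨g, hg, -⟩ := h x y x.injective y.injective
  exact ⟨g, by ext i; simpa using hg i⟩

theorem Sharp.stabilizer_eq_bot {k : ℕ} (h : Sharp G α k) (x : Fin k ↪ α) :
    stabilizer G x = ⊥ := by
  rw [eq_bot_iff]
  intro g hg
  rw [Subgroup.mem_bot]
  refine (h x x x.injective x.injective).unique (fun i => ?_) (fun i => one_smul _ _)
  have := DFunLike.congr_fun (mem_stabilizer_iff.1 hg) i
  simpa using this

theorem Sharp.eq_of {k : ℕ} (h : Sharp G α k) {x : Fin k → α} (hx : Injective x) {g g' : G}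
    (e : ∀ i, g • x i = g' • x i) : g = g' := by
  refine (h x (fun i => g' • x i) hx ?_).unique e (fun _ => rfl)
  exact (MulAction.injective g').comp hx

theorem Sharp.card_eq [Fintype α] {k : ℕ} (h : Sharp G α k) (hk : k ≤ Fintype.card α) :
    Nat.card G = (Fintype.card α).descFactorial k := by
  classical
  obtain ⟨x⟩ : Nonempty (Fin k ↪ α) :=
    Function.Embedding.nonempty_of_card_le (by simpa using hk)
  have := h.multiplyPretransitive
  rw [card_eq_card_mul_stabilizer (G := G) x, h.stabilizer_eq_bot, Subgroup.card_bot, mul_one,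
    Nat.card_eq_fintype_card, Fintype.card_embedding_eq, Fintype.card_fin]

theorem Sharp.faithful [Fintype α] {k : ℕ} (h : Sharp G α k) (hk : k ≤ Fintype.card α) :
    FaithfulSMul G α := by
  obtain ⟨x⟩ : Nonempty (Fin k ↪ α) :=
    Function.Embedding.nonempty_of_card_le (by simpa using hk)
  exact ⟨fun e => h.eq_of x.injective fun i => e _⟩

theorem Sharp.ofStabilizer {k : ℕ} (h : Sharp G α (k + 1)) (a : α) :
    Sharp (stabilizer G a) (SubMulAction.ofStabilizer G a) k := by
  intro x y hx hy
  have inj : ∀ z : Fin k → SubMulAction.ofStabilizer G a, Injective z →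
      Injective (Fin.cons a (fun i => (z i : α)) : Fin (k + 1) → α) := by
    intro z hz
    rw [Fin.cons_injective_iff]
    refine ⟨?_, Subtype.val_injective.comp hz⟩
    rintro ⟨i, hi⟩
    exact (z i).2 hi
  obtain ⟨g, hg, hu⟩ := h _ _ (inj x hx) (inj y hy)
  refine ⟨⟨g, hg 0⟩, fun i => Subtype.ext (hg i.succ), fun g' h' => Subtype.ext (hu _ ?_)⟩
  intro i
  refine Fin.cases g'.2 (fun j => ?_) i
  exact congrArg Subtype.val (h' j)

theorem Sharp.card_centralizer {k : ℕ} (h : Sharp G α k) (t : G) (σ : Fin k → Fin k)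
    (x : Fin k → α) (hx : Injective x) (hxt : ∀ i, t • x i = x (σ i)) :
    Nat.card (centralizer ({t} : Set G)) =
      Nat.card {y : Fin k → α // Injective y ∧ ∀ i, t • y i = y (σ i)} := by
  refine Nat.card_congr (Equiv.ofBijective (fun g => ⟨fun i => (g : G) • x i,
    (MulAction.injective (g : G)).comp hx, fun i => ?_⟩) ⟨?_, ?_⟩)
  · have := g.2 t rfl
    rw [← mul_smul, this, mul_smul, hxt]
  · intro g g' e
    apply Subtype.ext
    exact h.eq_of hx fun i => congrFun (congrArg Subtype.val e) i
  · rintro ⟨y, hy, hyt⟩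
    obtain ⟨g, hg, -⟩ := h x y hx hy
    refine ⟨⟨g, ?_⟩, Subtype.ext (funext hg)⟩
    rintro _ rfl
    refine h.eq_of hx fun i => ?_
    rw [mul_smul, mul_smul, hg, hyt, hxt, hg]

theorem inj4 {a b c d : α} (hab : a ≠ b) (hac : a ≠ c) (had : a ≠ d) (hbc : b ≠ c) (hbd : b ≠ d)
    (hcd : c ≠ d) : Injective ![a, b, c, d] := by
  intro i j
  fin_cases i <;> fin_cases j <;> simp [*, hab.symm, hac.symm, had.symm, hbc.symm, hbd.symm, hcd.symm]

theorem Sharp.four_degree [Fintype α] (h : Sharp G α 4) (h4 : 4 ≤ Fintype.card α) :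
    Fintype.card α = 4 ∨ Fintype.card α = 5 ∨ Fintype.card α = 6 ∨ Fintype.card α = 11 := by
  classical
  by_cases h7 : Fintype.card α < 7
  · omega
  obtain ⟨x⟩ : Nonempty (Fin 4 ↪ α) :=
    Function.Embedding.nonempty_of_card_le (by simpa using h4)
  have hne : ∀ i j, i ≠ j → x i ≠ x j := fun i j hij e => hij (x.injective e)
  obtain ⟨t, ht, -⟩ := h x ![x 0, x 1, x 3, x 2] x.injective
    (inj4 (hne _ _ (by decide)) (hne _ _ (by decide)) (hne _ _ (by decide)) (hne _ _ (by decide))
      (hne _ _ (by decide)) (hne _ _ (by decide)))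
  have t0 : t • x 0 = x 0 := ht 0
  have t1 : t • x 1 = x 1 := ht 1
  have t2 : t • x 2 = x 3 := ht 2
  have t3 : t • x 3 = x 2 := ht 3
  have htt : t * t = 1 := by
    refine h.eq_of x.injective fun i => ?_
    fin_cases i <;> simp [mul_smul, t0, t1, t2, t3]
  have htt' : ∀ a : α, t • t • a = a := fun a => by rw [← mul_smul, htt, one_smul]
  set F : Finset α := Finset.univ.filter (fun a => t • a = a) with hF
  set M : Finset α := Finset.univ.filter (fun a => ¬ t • a = a) with hM
  have hFM : F.card + M.card = Fintype.card α := by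
    rw [hF, hM, Finset.card_filter_add_card_filter_not, Finset.card_univ]
  have hF2 : 2 ≤ F.card := by
    have : ({x 0, x 1} : Finset α) ⊆ F := by
      intro a ha
      simp only [Finset.mem_insert, Finset.mem_singleton] at ha
      rcases ha with rfl | rfl <;> simp [hF, t0, t1]
    have := Finset.card_le_card this
    rwa [Finset.card_pair (hne _ _ (by decide))] at this
  have hF3 : F.card ≤ 3 := by
    by_contra hc
    obtain ⟨y⟩ : Nonempty (Fin 4 ↪ F) :=
      Function.Embedding.nonempty_of_card_le (by simp; omega)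
    have : t = 1 := by
      refine h.eq_of (x := fun i => (y i : α)) (Subtype.val_injective.comp y.injective) fun i => ?_
      rw [one_smul]; exact (Finset.mem_filter.1 (y i).2).2
    rw [this, one_smul] at t2
    exact hne _ _ (by decide) t2
  -- first count
  have c1 := h.card_centralizer t ![0, 1, 3, 2] x x.injective (by
    intro i; fin_cases i <;> simp [t0, t1, t2, t3])
  have e1 : Nat.card {y : Fin 4 → α // Injective y ∧ ∀ i, t • y i = y (![0, 1, 3, 2] i)} =
      (F.offDiag ×ˢ M).card := by
    rw [← Nat.card_eq_finsetCard]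
    refine Nat.card_congr ⟨fun y => ⟨((y.1 0, y.1 1), y.1 2), ?_⟩,
      fun z => ⟨![z.1.1.1, z.1.1.2, z.1.2, t • z.1.2], ?_⟩, ?_, ?_⟩
    · obtain ⟨y, hy, hyt⟩ := y
      have a0 := hyt 0
      have a1 := hyt 1
      have a2 := hyt 2
      simp only [Finset.mem_product, Finset.mem_offDiag, hF, hM, Finset.mem_filter,
        Finset.mem_univ, true_and]
      refine ⟨⟨a0, a1, fun e => absurd (hy e) (by decide)⟩, fun e => ?_⟩
      rw [e] at a2
      exact absurd (hy a2) (by decide)
    · obtain ⟨⟨⟨a, b⟩, c⟩, hz⟩ := z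
      simp only [Finset.mem_product, Finset.mem_offDiag, hF, hM, Finset.mem_filter,
        Finset.mem_univ, true_and] at hz
      obtain ⟨⟨ha, hb, hab⟩, hc⟩ := hz
      dsimp only
      refine ⟨inj4 hab ?_ ?_ ?_ ?_ ?_, ?_⟩
      · intro e; apply hc; rw [← e]; exact ha
      · intro e; apply hc; rw [← e, ← htt' c, ← e, ha]
      · intro e; apply hc; rw [← e]; exact hb
      · intro e; apply hc; rw [← e, ← htt' c, ← e, hb]
      · exact fun e => hc e.symm
      · intro i; fin_cases i <;> simp [ha, hb, htt']
    · rintro ⟨y, hy, hyt⟩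
      apply Subtype.ext
      funext i
      have a2 := hyt 2
      fin_cases i <;> simp
      exact a2
    · rintro ⟨⟨⟨a, b⟩, c⟩, hz⟩
      rfl
  -- second count
  have hMc : ∀ u ∈ M, ((M.erase u).erase (t • u)).card = M.card - 2 := by
    intro u hu
    have hu' : ¬ t • u = u := by simpa [hM] using hu
    rw [Finset.card_erase_of_mem, Finset.card_erase_of_mem hu]
    · omega
    · rw [Finset.mem_erase]
      refine ⟨hu', ?_⟩
      simp only [hM, Finset.mem_filter, Finset.mem_univ, true_and, htt']
      exact fun e => hu' e.symm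
  have e2 : Nat.card {y : Fin 4 → α // Injective y ∧ ∀ i, t • y i = y (![1, 0, 3, 2] i)} =
      (M.sigma (fun u => (M.erase u).erase (t • u))).card := by
    rw [← Nat.card_eq_finsetCard]
    refine Nat.card_congr ⟨fun y => ⟨⟨y.1 0, y.1 2⟩, ?_⟩,
      fun z => ⟨![z.1.1, t • z.1.1, z.1.2, t • z.1.2], ?_⟩, ?_, ?_⟩
    · obtain ⟨y, hy, hyt⟩ := y
      have a0 : t • y 0 = y 1 := hyt 0
      have a2 : t • y 2 = y 3 := hyt 2
      simp only [Finset.mem_sigma, Finset.mem_erase, hM, Finset.mem_filter,
        Finset.mem_univ, true_and, a0, a2]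
      exact ⟨fun e => absurd (hy e) (by decide), fun e => absurd (hy e) (by decide),
        fun e => absurd (hy e) (by decide), fun e => absurd (hy e) (by decide)⟩
    · obtain ⟨⟨a, c⟩, hz⟩ := z
      simp only [Finset.mem_sigma, Finset.mem_erase, hM, Finset.mem_filter,
        Finset.mem_univ, true_and] at hz
      obtain ⟨ha, h1, h2, hc⟩ := hz
      dsimp only
      refine ⟨inj4 ?_ ?_ ?_ ?_ ?_ ?_, ?_⟩
      · exact fun e => ha e.symm
      · exact fun e => h2 e.symm
      · intro e; apply h1; rw [e, htt']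
      · exact fun e => h1 e.symm
      · intro e; exact h2 (MulAction.injective t e).symm
      · exact fun e => hc e.symm
      · intro i; fin_cases i <;> simp [htt']
    · rintro ⟨y, hy, hyt⟩
      apply Subtype.ext
      funext i
      have a0 := hyt 0
      have a2 := hyt 2
      fin_cases i <;> simp
      · exact a0
      · exact a2
    · rintro ⟨⟨a, c⟩, hz⟩
      rfl
  have e3 : (M.sigma (fun u => (M.erase u).erase (t • u))).card = M.card * (M.card - 2) := by
    rw [Finset.card_sigma, Finset.sum_congr rfl hMc, Finset.sum_const, smul_eq_mul]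
  have hM4 : 4 ≤ M.card := by omega
  obtain ⟨⟨y, hy, hyt⟩⟩ :
      Nonempty {y : Fin 4 → α // Injective y ∧ ∀ i, t • y i = y (![1, 0, 3, 2] i)} := by
    refine (Nat.card_ne_zero.1 ?_).1
    rw [e2, e3]
    exact Nat.mul_ne_zero (by omega) (by omega)
  have c2 := h.card_centralizer t ![1, 0, 3, 2] y hy hyt
  rw [c1, e1, e2, e3, Finset.card_product, Finset.offDiag_card, mul_comm] at c2
  have c3 := Nat.eq_of_mul_eq_mul_left (by omega) c2
  have : F.card = 2 ∨ F.card = 3 := by omega
  rcases this with e | e <;> rw [e] at c3 hFM <;> omega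

theorem card_ofStabilizer_add_one [Fintype α] (a : α) [Fintype (SubMulAction.ofStabilizer G a)] :
    Fintype.card (SubMulAction.ofStabilizer G a) + 1 = Fintype.card α := by
  rw [← Nat.card_eq_fintype_card, ← Nat.card_eq_fintype_card]
  exact SubMulAction.nat_card_ofStabilizer_add_one_eq G a

theorem Sharp.five_degree [Fintype α] (h : Sharp G α 5) (h5 : 5 ≤ Fintype.card α) :
    Fintype.card α = 5 ∨ Fintype.card α = 6 ∨ Fintype.card α = 7 ∨ Fintype.card α = 12 := by
  classical
  obtain ⟨a⟩ : Nonempty α := Fintype.card_pos_iff.1 (by omega)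
  have := card_ofStabilizer_add_one (G := G) a
  have := (h.ofStabilizer a).four_degree (by omega)
  omega

theorem Sharp.six_degree [Fintype α] (h : Sharp G α 6) (h6 : 6 ≤ Fintype.card α) :
    Fintype.card α = 6 ∨ Fintype.card α = 7 ∨ Fintype.card α = 8 := by
  classical
  obtain ⟨a⟩ : Nonempty α := Fintype.card_pos_iff.1 (by omega)
  have := card_ofStabilizer_add_one (G := G) a
  have := (h.ofStabilizer a).five_degree (by omega)
  by_contra hc
  have h13 : Fintype.card α = 13 := by omega
  have hG := h.card_eq h6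
  rw [h13] at hG
  have hG' : Nat.card G = 13 * 95040 := by rw [hG]; decide
  have : Finite G := Nat.finite_of_card_ne_zero (by rw [hG']; decide)
  have := h.faithful h6
  have : Fact (Nat.Prime 13) := ⟨by norm_num⟩
  obtain ⟨Q, hQ⟩ := exists_subgroup_card_prime (G := G) (p := 13) ⟨_, hG'⟩
  obtain ⟨n, r, e1, e2, e3, -⟩ := sylow_data_of_prime_degree (α := α)
    (by rw [Nat.card_eq_fintype_card, h13]) hG' (by decide) Q hQ
  have hr : r ≤ 12 := Nat.le_of_dvd (by norm_num) e3
  unfold Nat.ModEq at e2
  interval_cases r <;> omega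

universe u v

theorem sharp_large_degree (j : ℕ) : ∀ {G : Type u} {α : Type v} [Group G] [MulAction G α]
    [Fintype α], Sharp G α (j + 6) → j + 6 ≤ Fintype.card α →
    Fintype.card α = j + 6 ∨ Fintype.card α = j + 6 + 1 ∨ Fintype.card α = j + 6 + 2 := by
  induction j with
  | zero => intro G α _ _ _ h h6; exact h.six_degree h6
  | succ j ih =>
    intro G α _ _ _ h h6
    classical
    obtain ⟨a⟩ : Nonempty α := Fintype.card_pos_iff.1 (by omega)
    have := card_ofStabilizer_add_one (G := G) a
    have h' : Sharp G α (j + 6 + 1) := h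
    have := ih (h'.ofStabilizer a) (by omega)
    omega

theorem Sharp.simple_11 [Fintype α] (h : Sharp G α 4) (h11 : Fintype.card α = 11) :
    IsSimpleGroup G ∧ Nat.card G = 7920 := by
  have hG := h.card_eq (by omega)
  rw [h11] at hG
  have hG' : Nat.card G = 11 * 720 := by rw [hG]; decide
  refine ⟨?_, hG'⟩
  have : Finite G := Nat.finite_of_card_ne_zero (by rw [hG']; decide)
  have := h.faithful (by omega)
  have : Fact (Nat.Prime 11) := ⟨by norm_num⟩
  have h4 := h.multiplyPretransitive
  have h1 : IsMultiplyPretransitive G α 1 :=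
    isMultiplyPretransitive_of_le (n := 4) (by norm_num) (by rw [Nat.card_eq_fintype_card]; omega)
  have := is_one_pretransitive_iff.1 h1
  refine simple_of_prime_degree (α := α) (r := 5) (by rw [Nat.card_eq_fintype_card, h11]) hG'
    (by decide) (by norm_num) (by norm_num) ?_
  intro n s e1 e2 e3
  have hr : s ≤ 10 := Nat.le_of_dvd (by norm_num) e3
  unfold Nat.ModEq at e2
  interval_cases s <;> omega

theorem two_trans_of_multiplyPretransitive [Finite α] {k : ℕ} [IsMultiplyPretransitive G α k]
    (hk : 2 ≤ k) (hk' : k ≤ Nat.card α) (a x y : α) (hx : x ≠ a) (hy : y ≠ a) :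
    ∃ g : G, g • a = a ∧ g • x = y := by
  have h2 : IsMultiplyPretransitive G α 2 := isMultiplyPretransitive_of_le (n := k) hk hk'
  exact is_two_pretransitive_iff.1 h2 hx.symm hy.symm

theorem Sharp.simple_12 [Fintype α] (h : Sharp G α 5) (h12 : Fintype.card α = 12) :
    IsSimpleGroup G ∧ Nat.card G = 95040 := by
  classical
  have hG := h.card_eq (by omega)
  rw [h12] at hG
  refine ⟨?_, by rw [hG]; decide⟩
  have := h.faithful (by omega)
  have h5 := h.multiplyPretransitive
  have hc : Nat.card α = 12 := by rw [Nat.card_eq_fintype_card, h12]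
  have h2 : IsMultiplyPretransitive G α 2 :=
    isMultiplyPretransitive_of_le (n := 5) (by norm_num) (by omega)
  have := isPreprimitive_of_is_two_pretransitive h2
  obtain ⟨a⟩ : Nonempty α := Fintype.card_pos_iff.1 (by omega)
  have := card_ofStabilizer_add_one (G := G) a
  have := ((h.ofStabilizer a).simple_11 (by omega)).1
  refine simple_of_stabilizer_simple a (no_regular_normal_of_two_trans a
    (two_trans_of_multiplyPretransitive (k := 2) le_rfl (by omega) a)
    Nat.prime_two Nat.prime_three (by norm_num) (by rw [hc]; decide) (by rw [hc]; decide))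

end Cfsg.Agent.H2
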