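import Cfsg.Agent.H2.Sharp

set_option autoImplicit false

namespace Cfsg.Agent.H2

open MulAction

theorem stabilizer_eq_bot_of_card {G α : Type*} [Group G] [MulAction G α] [Fintype α] {k : ℕ}
    [IsMultiplyPretransitive G α k] (hG : Nat.card G = (Fintype.card α).descFactorial k)
    (x : Fin k ↪ α) : stabilizer G x = ⊥ := by
  classical
  have h := card_eq_card_mul_stabilizer (G := G) x
  rw [Nat.card_eq_fintype_card (α := Fin k ↪ α), Fintype.card_embedding_eq, Fintype.card_fin,
    hG] at h
  have hpos : 0 < (Fintype.card α).descFactorial k := by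
    rw [Nat.descFactorial_pos]
    simpa using Fintype.card_le_of_embedding x
  rw [← Subgroup.card_eq_one]
  exact Nat.eq_of_mul_eq_mul_left hpos (by rw [← h, mul_one])

end Cfsg.Agent.H2
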