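import Cfsg.Agent.H2.SrgBasic

/-! Counting in a strongly regular graph with parameters `(77,16,0,4)`. -/

set_option autoImplicit false

namespace Cfsg.Agent.H2.S77

open Finset

variable {V : Type*} [Fintype V] [DecidableEq V] (G : SimpleGraph V) [DecidableRel G.Adj]

/-- adjacency matrix -/
def Am (a b : V) : ℤ := if G.Adj a b then 1 else 0

/-- the matrix applied to a vector -/
def Af (f : V → ℤ) (u : V) : ℤ := ∑ a, Am G u a * f a

/-- indicator function -/
def ind (S : Finset V) (u : V) : ℤ := if u ∈ S then 1 else 0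

/-- number of neighbours in `S` -/
def jn (S : Finset V) (u : V) : ℕ := (S.filter (G.Adj u)).card

/-- common neighbours -/
def CN (x y : V) : Finset V := univ.filter (fun u => G.Adj x u ∧ G.Adj y u)

/-- the rest of the line through two non-adjacent vertices -/
def ZZ (x y : V) : Finset V :=
  univ.filter (fun u => u ≠ x ∧ u ≠ y ∧ ¬ G.Adj x u ∧ ¬ G.Adj y u ∧ jn G (CN G x y) u = 0)

variable {G}

omit [DecidableEq V] in
theorem mem_CN {x y u : V} : u ∈ CN G x y ↔ G.Adj x u ∧ G.Adj y u := by simp [CN]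

theorem mem_ZZ {x y u : V} : u ∈ ZZ G x y ↔
    u ≠ x ∧ u ≠ y ∧ ¬ G.Adj x u ∧ ¬ G.Adj y u ∧ jn G (CN G x y) u = 0 := by simp [ZZ]

omit [Fintype V] [DecidableEq V] in
theorem jn_eq_zero {S : Finset V} {u : V} : jn G S u = 0 ↔ ∀ a ∈ S, ¬ G.Adj u a := by
  simp [jn, filter_eq_empty_iff]

omit [Fintype V] [DecidableEq V] in
theorem Am_comm (a b : V) : Am G a b = Am G b a := by simp only [Am, G.adj_comm]

theorem sum_ind_mul (S : Finset V) (g : V → ℤ) : ∑ u, ind S u * g u = ∑ u ∈ S, g u := by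
  simp [ind, sum_ite_mem]

theorem sum_ind (S : Finset V) : ∑ u, ind S u = S.card := by
  simp [ind]

theorem sum_ind_sq (S : Finset V) : ∑ u, ind S u ^ 2 = S.card := by
  simp [ind]

theorem Af_ind (S : Finset V) (u : V) : Af G (ind S) u = jn G S u := by
  simp only [Af, mul_comm (Am G u _), sum_ind_mul, jn, card_filter]
  push_cast
  rfl

theorem Af_single (x u : V) : Af G (ind {x}) u = Am G u x := by
  simp only [Af, mul_comm (Am G u _), sum_ind_mul, sum_singleton]

variable (h : G.IsSRGWith 77 16 0 4)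
include h

omit [DecidableEq V] in
theorem Am_row (a : V) : ∑ u, Am G a u = 16 := by
  have := srg_deg h a
  rw [card_filter] at this
  have h2 := congrArg (Nat.cast : ℕ → ℤ) this
  push_cast at h2
  exact h2

theorem Am_sq (a b : V) :
    ∑ u, Am G u a * Am G u b = 12 * (if a = b then 1 else 0) - 4 * Am G a b + 4 := by
  have e : ∑ u, Am G u a * Am G u b = (univ.filter (fun u => G.Adj a u ∧ G.Adj b u)).card := by
    rw [card_filter]
    push_cast
    refine sum_congr rfl fun u _ => ?_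
    simp only [Am, G.adj_comm u]
    by_cases h1 : G.Adj a u <;> by_cases h2 : G.Adj b u <;> simp [h1, h2]
  rw [e]
  by_cases hab : a = b
  · subst hab
    simp only [and_self, srg_deg h a, Am]
    simp
  · by_cases hadj : G.Adj a b
    · rw [srg_adj h hadj]; simp [Am, hab, hadj]
    · rw [srg_nadj h hab hadj]; simp [Am, hab, hadj]

omit [DecidableEq V] in
theorem sum_Af (f : V → ℤ) : ∑ u, Af G f u = 16 * ∑ u, f u := by
  simp only [Af]
  rw [sum_comm, mul_sum]
  refine sum_congr rfl fun a _ => ?_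
  rw [← sum_mul, ← Am_row h a]
  simp only [Am_comm a]

theorem sum_Af_sq (f : V → ℤ) :
    ∑ u, Af G f u ^ 2 = 12 * ∑ u, f u ^ 2 - 4 * ∑ u, f u * Af G f u + 4 * (∑ u, f u) ^ 2 := by
  have e1 : ∑ u, Af G f u ^ 2 = ∑ a, ∑ b, f a * f b * ∑ u, Am G u a * Am G u b := by
    simp only [Af, sq, sum_mul_sum]
    simp only [mul_sum]
    rw [sum_comm]
    refine sum_congr rfl fun a _ => ?_
    rw [sum_comm]
    refine sum_congr rfl fun b _ => sum_congr rfl fun u _ => by ring
  rw [e1]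
  simp only [Am_sq h, Af, sq, sum_mul_sum]
  simp only [mul_sum, ← sum_sub_distrib, ← sum_add_distrib]
  refine sum_congr rfl fun a _ => ?_
  have e2 : 12 * (f a * f a) = ∑ b, 12 * (f a * f b) * (if a = b then 1 else 0) := by
    simp
  rw [e2, ← sum_sub_distrib, ← sum_add_distrib]
  refine sum_congr rfl fun b _ => by ring

omit [DecidableEq V] in
theorem sum_two : ∑ _u : V, (2 : ℤ) = 154 := by
  simp [h.card]

theorem no33 {x y z : V} (hxy : x ≠ y) (hxz : z ≠ x) (hyz : z ≠ y) : jn G (CN G x y) z ≤ 2 := by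
  by_contra hlt
  obtain ⟨T, hT, hT3⟩ := exists_subset_card_eq (n := 3) (s := (CN G x y).filter (G.Adj z))
    (by unfold jn at hlt; omega)
  have hTa : ∀ u ∈ T, G.Adj x u ∧ G.Adj y u ∧ G.Adj z u := fun u hu => by
    have := mem_filter.1 (hT hu)
    exact ⟨(mem_CN.1 this.1).1, (mem_CN.1 this.1).2, this.2⟩
  set X : Finset V := {x, y, z} with hX
  have hX3 : X.card = 3 := card_eq_three.2 ⟨x, y, z, hxy, hxz.symm, hyz.symm, rfl⟩
  have hXT : ∀ a ∈ X, ∀ u ∈ T, G.Adj a u := by
    intro a ha u hu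
    simp only [hX, mem_insert, mem_singleton] at ha
    rcases ha with rfl | rfl | rfl
    exacts [(hTa u hu).1, (hTa u hu).2.1, (hTa u hu).2.2]
  have hdis : Disjoint X T := disjoint_left.2 fun a ha hb => G.irrefl (hXT a ha a hb)
  set S := X ∪ T with hS
  have hS6 : S.card = 6 := by rw [hS, card_union_of_disjoint hdis, hX3, hT3]
  have hj : ∀ u ∈ S, 3 ≤ jn G S u := by
    intro u hu
    rcases mem_union.1 hu with hu | hu
    · rw [← hT3]
      exact card_le_card fun a ha => mem_filter.2 ⟨mem_union_right _ ha, hXT u hu a ha⟩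
    · rw [← hX3]
      exact card_le_card fun a ha => mem_filter.2 ⟨mem_union_left _ ha, (hXT a ha u hu).symm⟩
  have h1 := sum_Af h (ind S)
  have h2 := sum_Af_sq h (ind S)
  simp only [sum_ind_mul, sum_ind, sum_ind_sq, Af_ind, hS6] at h1 h2
  have h3 : (18 : ℤ) ≤ ∑ u ∈ S, (jn G S u : ℤ) := by
    have := card_nsmul_le_sum S (fun u => (jn G S u : ℤ)) 3 (fun u hu => by exact_mod_cast hj u hu)
    simpa [hS6] using this
  have h4 : (12 : ℤ) ≤ ∑ u ∈ S, ((jn G S u : ℤ) - 1) * (jn G S u - 2) := by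
    have := card_nsmul_le_sum S (fun u => ((jn G S u : ℤ) - 1) * (jn G S u - 2)) 2 (fun u hu => by
      have : (3 : ℤ) ≤ jn G S u := by exact_mod_cast hj u hu
      nlinarith)
    simpa [hS6] using this
  have h5 : ∑ u ∈ S, ((jn G S u : ℤ) - 1) * (jn G S u - 2) ≤
      ∑ u, ((jn G S u : ℤ) - 1) * (jn G S u - 2) := by
    refine sum_le_sum_of_subset_of_nonneg (subset_univ _) fun u _ _ => ?_
    rcases le_or_gt (jn G S u : ℤ) 1 with h6 | h6
    · nlinarith
    · have : (2 : ℤ) ≤ jn G S u := h6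
      nlinarith
  have h6 : ∑ u, ((jn G S u : ℤ) - 1) * (jn G S u - 2) =
      ∑ u, (jn G S u : ℤ) ^ 2 - 3 * ∑ u, (jn G S u : ℤ) + ∑ _u : V, (2 : ℤ) := by
    rw [mul_sum, ← sum_sub_distrib, ← sum_add_distrib]
    exact sum_congr rfl fun u _ => by ring
  rw [sum_two h] at h6
  push_cast at h1 h2
  linarith

section line

variable {x y : V} (hxy : x ≠ y) (hn : ¬ G.Adj x y)
include hxy hn

omit [DecidableEq V] in
theorem card_CN : (CN G x y).card = 4 := srg_nadj h hxy hn

omit [DecidableEq V] in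
theorem jn_left : jn G (CN G x y) x = 4 := by
  rw [jn, filter_true_of_mem fun a ha => (mem_CN.1 ha).1, card_CN h hxy hn]

omit [DecidableEq V] in
theorem jn_right : jn G (CN G x y) y = 4 := by
  rw [jn, filter_true_of_mem fun a ha => (mem_CN.1 ha).2, card_CN h hxy hn]

omit [DecidableEq V] hxy hn in
theorem jn_adj_left {u : V} (hu : G.Adj x u) : jn G (CN G x y) u = 0 :=
  jn_eq_zero.2 fun _ ha h' => srg_notri h hu (mem_CN.1 ha).1 h'

omit [DecidableEq V] hxy hn in
theorem jn_adj_right {u : V} (hu : G.Adj y u) : jn G (CN G x y) u = 0 :=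
  jn_eq_zero.2 fun _ ha h' => srg_notri h hu (mem_CN.1 ha).2 h'

theorem card_ZZ : (ZZ G x y).card = 3 := by
  have h1 := sum_Af h (ind (CN G x y))
  have h2 := sum_Af_sq h (ind (CN G x y))
  simp only [sum_ind_mul, sum_ind, sum_ind_sq, Af_ind, card_CN h hxy hn] at h1 h2
  rw [sum_congr rfl (g := fun _ => (0 : ℤ)) (s₂ := CN G x y)
    (fun u hu => by rw [jn_adj_left h (mem_CN.1 hu).1]; rfl), sum_const_zero] at h2
  have key : ∀ u, ((jn G (CN G x y) u : ℤ) - 1) * (jn G (CN G x y) u - 2) =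
      6 * ind {x} u + 6 * ind {y} u + 2 * (Am G x u + Am G y u - ind (CN G x y) u) +
        2 * ind (ZZ G x y) u := by
    intro u
    by_cases hux : u = x
    · subst hux
      simp [jn_left h hxy hn, ind, Am, hxy, mem_CN, mem_ZZ, G.adj_comm y u, hn]
    by_cases huy : u = y
    · subst huy
      simp [jn_right h hxy hn, ind, Am, hux, mem_CN, mem_ZZ, hn]
    by_cases h3 : G.Adj x u
    · by_cases h4 : G.Adj y u <;>
        simp [jn_adj_left h h3, ind, Am, hux, huy, mem_CN, mem_ZZ, h3, h4]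
    by_cases h4 : G.Adj y u
    · simp [jn_adj_right h h4, ind, Am, hux, huy, mem_CN, mem_ZZ, h3, h4]
    have h5 := no33 h hxy hux huy
    simp only [ind, Am, hux, huy, mem_CN, mem_ZZ, h3, h4, mem_singleton]
    generalize jn G (CN G x y) u = t at h5
    interval_cases t <;> simp [hux, huy]
  have h6 : ∑ u, ((jn G (CN G x y) u : ℤ) - 1) * (jn G (CN G x y) u - 2) =
      ∑ u, (jn G (CN G x y) u : ℤ) ^ 2 - 3 * ∑ u, (jn G (CN G x y) u : ℤ) + ∑ _u : V, (2 : ℤ) := by
    rw [mul_sum, ← sum_sub_distrib, ← sum_add_distrib]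
    exact sum_congr rfl fun u _ => by ring
  simp only [key, sum_add_distrib, ← mul_sum, sum_sub_distrib, sum_ind, Am_row h, card_singleton,
    card_CN h hxy hn, sum_two h] at h6
  push_cast at h1 h2 h6
  have : ((ZZ G x y).card : ℤ) = 3 := by linarith
  exact_mod_cast this

theorem line_eq (u : V) : 2 * (ind (ZZ G x y) u - 3 * (ind {x} u + ind {y} u) - 2 * ind (CN G x y) u) -
    ((jn G (ZZ G x y) u : ℤ) - 3 * (Am G u x + Am G u y) - 2 * jn G (CN G x y) u) - 2 = 0 := by
  set Z := ZZ G x y with hZ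
  set C := CN G x y with hC
  set f : V → ℤ := fun u => ind Z u - 3 * (ind {x} u + ind {y} u) - 2 * ind C u with hf
  have hAf : ∀ u, Af G f u = (jn G Z u : ℤ) - 3 * (Am G u x + Am G u y) - 2 * jn G C u := by
    intro u
    rw [← Af_ind, ← Af_ind, ← Af_single, ← Af_single]
    simp only [Af, hf, mul_sum, ← sum_add_distrib, ← sum_sub_distrib]
    exact sum_congr rfl fun a _ => by ring
  have hZ3 : Z.card = 3 := card_ZZ h hxy hn
  have hC4 : C.card = 4 := card_CN h hxy hn
  have s1 : ∑ u, f u = -11 := by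
    simp only [hf, sum_sub_distrib, ← mul_sum, sum_add_distrib, sum_ind, hZ3, hC4, card_singleton]
    norm_num
  have s2 : ∑ u, f u ^ 2 = 37 := by
    have key : ∀ u, f u ^ 2 = ind Z u + 9 * (ind {x} u + ind {y} u) + 4 * ind C u := by
      intro u
      by_cases hux : u = x
      · subst hux
        simp [hf, hZ, hC, ind, hxy, mem_CN, mem_ZZ]
      by_cases huy : u = y
      · subst huy
        simp [hf, hZ, hC, ind, hux, mem_CN, mem_ZZ]
      by_cases h3 : u ∈ C
      · have : u ∉ Z := fun h4 => (mem_ZZ.1 h4).2.2.1 (mem_CN.1 h3).1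
        simp [hf, ind, hux, huy, h3, this]
      · by_cases h4 : u ∈ Z <;> simp [hf, ind, hux, huy, h3, h4]
    simp only [key, ← mul_sum, sum_add_distrib, sum_ind, hZ3, hC4, card_singleton]
    norm_num
  have s3 : ∑ u, f u * Af G f u = 96 + ∑ u ∈ Z, (jn G Z u : ℤ) := by
    have e : ∑ u, f u * Af G f u = ∑ u ∈ Z, Af G f u - 3 * (Af G f x + Af G f y) -
        2 * ∑ u ∈ C, Af G f u := by
      rw [← sum_ind_mul Z, ← sum_ind_mul C, ← sum_singleton (Af G f) x, ← sum_singleton (Af G f) y,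
        ← sum_ind_mul {x}, ← sum_ind_mul {y}]
      simp only [mul_sum, ← sum_add_distrib, ← sum_sub_distrib]
      refine sum_congr rfl fun a _ => ?_
      change (ind Z a - 3 * (ind {x} a + ind {y} a) - 2 * ind C a) * _ = _
      ring
    have e1 : ∑ u ∈ Z, Af G f u = ∑ u ∈ Z, (jn G Z u : ℤ) := by
      refine sum_congr rfl fun u hu => ?_
      obtain ⟨-, -, h1, h2, h3⟩ := mem_ZZ.1 hu
      rw [hAf, h3]
      simp [Am, G.adj_comm u, h1, h2]
    have e2 : Af G f x = -8 := by
      rw [hAf, jn_left h hxy hn, jn_eq_zero.2 fun a ha => (mem_ZZ.1 ha).2.2.1]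
      simp [Am, hn]
    have e3 : Af G f y = -8 := by
      rw [hAf, jn_right h hxy hn, jn_eq_zero.2 fun a ha => (mem_ZZ.1 ha).2.2.2.1]
      simp [Am, G.adj_comm y x, hn]
    have e4 : ∑ u ∈ C, Af G f u = ∑ _u ∈ C, (-6 : ℤ) := by
      refine sum_congr rfl fun u hu => ?_
      rw [hAf, jn_adj_left h (mem_CN.1 hu).1,
        jn_eq_zero.2 fun a ha h' => jn_eq_zero.1 (mem_ZZ.1 ha).2.2.2.2 u hu h'.symm]
      simp [Am, G.adj_comm u, (mem_CN.1 hu).1, (mem_CN.1 hu).2]
    rw [e, e1, e2, e3, e4, sum_const, hC4]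
    simp
    ring
  have h1 := sum_Af h f
  have h2 := sum_Af_sq h f
  have s4 : ∑ u, (2 * f u - Af G f u - 2) ^ 2 = 4 * ∑ u, f u ^ 2 - 4 * ∑ u, f u * Af G f u +
      ∑ u, Af G f u ^ 2 - 8 * ∑ u, f u + 4 * ∑ u, Af G f u + 2 * ∑ _u : V, (2 : ℤ) := by
    simp only [mul_sum, ← sum_add_distrib, ← sum_sub_distrib]
    exact sum_congr rfl fun a _ => by ring
  have s5 : (0 : ℤ) ≤ ∑ u ∈ Z, (jn G Z u : ℤ) := sum_nonneg fun _ _ => by positivity
  rw [h2, h1, s1, s2, s3, sum_two h] at s4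
  have s6 : ∑ u, (2 * f u - Af G f u - 2) ^ 2 = 0 :=
    le_antisymm (by linarith) (sum_nonneg fun _ _ => sq_nonneg _)
  have := (sum_eq_zero_iff_of_nonneg fun _ _ => sq_nonneg _).1 s6 u (mem_univ _)
  rw [← hAf]
  exact pow_eq_zero_iff (two_ne_zero) |>.1 this

end line

end Cfsg.Agent.H2.S77
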