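import Cfsg.Agent.H2.Srg77a
import Cfsg.Agent.H2.D77

/-! Uniqueness of the strongly regular graph with parameters `(77,16,0,4)`. -/

set_option autoImplicit false
set_option linter.unusedSectionVars false

namespace Cfsg.Agent.H2.S77

open Finset Chk
open scoped Pointwise

theorem iso_of_code {V W T : Type*} {G : SimpleGraph V} {H : SimpleGraph W} (R : T → T → Prop)
    (f : V → T) (g : W → T) (hf : Function.Injective f) (hg : Function.Injective g)
    (hr : Set.range f = Set.range g) (af : ∀ a b, G.Adj a b ↔ R (f a) (f b))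
    (ag : ∀ a b, H.Adj a b ↔ R (g a) (g b)) : Nonempty (G ≃g H) := by
  let e : V ≃ W := (Equiv.ofInjective f hf).trans ((Equiv.setCongr hr).trans
    (Equiv.ofInjective g hg).symm)
  have he : ∀ a, g (e a) = f a := fun a => Equiv.apply_ofInjective_symm hg _
  exact ⟨⟨e, fun {a b} => by rw [ag, af, he, he]⟩⟩

variable {V : Type*} [Fintype V] [DecidableEq V] {G : SimpleGraph V} [DecidableRel G.Adj]

/-- parallel blocks -/
def par (G : SimpleGraph V) [DecidableRel G.Adj] (v d e : V) : Prop := d = e ∨ e ∈ ZZ G v d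

/-- second subconstituent -/
def Far (G : SimpleGraph V) (v d : V) : Prop := d ≠ v ∧ ¬ G.Adj v d

section

variable (h : G.IsSRGWith 77 16 0 4) {v d : V} (hd : Far G v d)
include h hd

theorem Z_cover {p : V} (h1 : G.Adj v p) (h2 : ¬ G.Adj d p) : jn G (ZZ G v d) p = 1 := by
  have := line_eq h hd.1.symm hd.2 p
  have h3 : p ≠ d := fun e => hd.2 (e ▸ h1)
  simp only [jn_adj_left h h1, ind, Am, mem_ZZ, mem_CN, mem_singleton, h1, h2, h3, h1.ne.symm,
    G.adj_comm p] at this
  simp at this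
  omega

theorem Z_co {z : V} (hz : z ∈ ZZ G v d) : jn G (ZZ G v d) z = 0 := by
  have := line_eq h hd.1.symm hd.2 z
  obtain ⟨h1, h2, h3, h4, h5⟩ := mem_ZZ.1 hz
  simp only [h5, ind, Am, hz, mem_CN, mem_singleton, h1, h2, h3, h4, G.adj_comm z] at this
  simp at this
  omega

theorem Z_type {u : V} (hu : Far G v u) (h2 : u ≠ d) (h4 : ¬ G.Adj d u) (hz : u ∉ ZZ G v d) :
    jn G (ZZ G v d) u + 2 = 2 * jn G (CN G v d) u := by
  have := line_eq h hd.1.symm hd.2 u
  simp only [ind, Am, hz, mem_CN, mem_singleton, hu.1, h2, hu.2, h4, G.adj_comm u] at this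
  simp at this
  omega

omit h in
theorem par.far {e : V} (he : par G v d e) : Far G v e := by
  rcases he with rfl | he
  · exact hd
  · exact ⟨(mem_ZZ.1 he).1, (mem_ZZ.1 he).2.2.1⟩

omit h in
theorem par.symm {e : V} (he : par G v d e) : par G v e d := by
  rcases he with rfl | he
  · exact Or.inl rfl
  · obtain ⟨h1, h2, h3, h4, h5⟩ := mem_ZZ.1 he
    refine Or.inr (mem_ZZ.2 ⟨hd.1, h2.symm, hd.2, fun h' => h4 h'.symm, jn_eq_zero.2 ?_⟩)
    intro a ha h6
    exact jn_eq_zero.1 h5 a (mem_CN.2 ⟨(mem_CN.1 ha).1, h6⟩) (mem_CN.1 ha).2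

theorem par_unique {e f p : V} (he : par G v d e) (hf : par G v d f) (hp : G.Adj v p)
    (h1 : G.Adj e p) (h2 : G.Adj f p) : e = f := by
  have aux : ∀ z ∈ ZZ G v d, G.Adj z p → ¬ G.Adj d p := fun z hz h3 h4 =>
    jn_eq_zero.1 (mem_ZZ.1 hz).2.2.2.2 p (mem_CN.2 ⟨hp, h4⟩) h3
  rcases he with rfl | he <;> rcases hf with rfl | hf
  · rfl
  · exact absurd h1 (aux f hf h2)
  · exact absurd h2 (aux e he h1)
  · exact card_le_one.1 (Z_cover h hd hp (aux e he h1)).le e (mem_filter.2 ⟨he, h1.symm⟩) f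
      (mem_filter.2 ⟨hf, h2.symm⟩)

theorem par_exists {p : V} (hp : G.Adj v p) : ∃ e, par G v d e ∧ G.Adj e p := by
  by_cases h1 : G.Adj d p
  · exact ⟨d, Or.inl rfl, h1⟩
  · obtain ⟨e, he⟩ := card_pos.1 (show 0 < jn G (ZZ G v d) p by rw [Z_cover h hd hp h1]; norm_num)
    exact ⟨e, Or.inr (mem_filter.1 he).1, (mem_filter.1 he).2.symm⟩

theorem par_eucl {e f : V} (he : par G v d e) (hf : par G v d f) : par G v e f := by
  by_cases hef : e = f
  · exact Or.inl hef
  have hfar := hf.far hd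
  refine Or.inr (mem_ZZ.2 ⟨hfar.1, Ne.symm hef, hfar.2, ?_, jn_eq_zero.2 fun a ha h1 =>
    hef (par_unique h hd he hf (mem_CN.1 ha).1 (mem_CN.1 ha).2 h1)⟩)
  rcases he with rfl | he <;> rcases hf with rfl | hf
  · exact G.irrefl
  · exact (mem_ZZ.1 hf).2.2.2.1
  · exact fun h' => (mem_ZZ.1 he).2.2.2.1 h'.symm
  · exact jn_eq_zero.1 (Z_co h hd he) f hf

theorem par.trans {e f : V} (he : par G v d e) (hf : par G v e f) : par G v d f :=
  par_eucl h (he.far hd) (he.symm hd) hf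

omit h hd in
theorem par.not_adj {e : V} (he : par G v d e) : ¬ G.Adj d e := by
  rcases he with rfl | he
  · exact G.irrefl
  · exact (mem_ZZ.1 he).2.2.2.1

theorem type_iff {u : V} (hu : Far G v u) (hp : ¬ par G v d u) :
    jn G (CN G v d) u = 1 ↔ ∀ e, par G v d e → ¬ G.Adj u e := by
  have h2 : u ≠ d := fun e => hp (Or.inl e.symm)
  have h3 : u ∉ ZZ G v d := fun e => hp (Or.inr e)
  constructor
  · intro h1
    have h4 : ¬ G.Adj d u := fun h' => by rw [jn_adj_right h h'] at h1; omega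
    have h5 := Z_type h hd hu h2 h4 h3
    rintro e (rfl | he)
    · exact fun h' => h4 h'.symm
    · exact jn_eq_zero.1 (by omega) e he
  · intro h1
    have h4 : ¬ G.Adj d u := fun h' => h1 d (Or.inl rfl) h'.symm
    have h5 := Z_type h hd hu h2 h4 h3
    rw [jn_eq_zero.2 fun e he => h1 e (Or.inr he)] at h5
    omega

end

/-- a good numbering of the points and labels -/
structure Good (G : SimpleGraph V) (v p : V) (θ : Fin 31 → V) : Prop where
  adj : G.Adj v p
  inj : Function.Injective θ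
  lo : ∀ x : Fin 31, x.val < 16 → G.Adj v (θ x)
  hi : ∀ x : Fin 31, 16 ≤ x.val → G.Adj p (θ x) ∧ θ x ≠ v
  lo' : ∀ q, G.Adj v q → ∃ x, θ x = q
  hi' : ∀ q, G.Adj p q → q ≠ v → ∃ x, θ x = q

open Classical in
/-- points and label of a block, inside the graph -/
noncomputable def FF (G : SimpleGraph V) [DecidableRel G.Adj] (v p d : V) : Finset V :=
  CN G v d ∪ univ.filter (fun r => G.Adj r p ∧ par G v d r)

/-- the coded block -/
noncomputable def blkc (G : SimpleGraph V) [DecidableRel G.Adj] (v p : V) (θ : Fin 31 → V) (d : V) :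
    Finset (Fin 31) := univ.filter (fun x => θ x ∈ FF G v p d)

theorem mem_FF {v p d r : V} :
    r ∈ FF G v p d ↔ (G.Adj v r ∧ G.Adj d r) ∨ (G.Adj r p ∧ par G v d r) := by
  simp [FF, mem_CN]

theorem mem_blkc {v p d : V} {θ : Fin 31 → V} {x : Fin 31} :
    x ∈ blkc G v p θ d ↔ θ x ∈ FF G v p d := by simp [blkc]

omit [Fintype V] in
theorem card_pull {θ : Fin 31 → V} (hθ : Function.Injective θ) {S : Finset V}
    (hS : ∀ a ∈ S, ∃ x, θ x = a) : (univ.filter (fun x => θ x ∈ S)).card = S.card := by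
  rw [← card_image_of_injective _ hθ]
  congr 1
  ext a
  simp only [mem_image, mem_filter, mem_univ, true_and]
  constructor
  · rintro ⟨x, hx, rfl⟩; exact hx
  · intro ha
    obtain ⟨x, rfl⟩ := hS a ha
    exact ⟨x, ha, rfl⟩

section

variable (h : G.IsSRGWith 77 16 0 4) {v p : V} {θ : Fin 31 → V} (g : Good G v p θ)
include h g

omit [DecidableEq V] in
theorem Good.far_hi {x : Fin 31} (hx : 16 ≤ x.val) : Far G v (θ x) :=
  ⟨(g.hi x hx).2, fun h' => srg_notri h g.adj h' (g.hi x hx).1⟩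

omit [DecidableEq V] in
theorem Good.lo_iff {x : Fin 31} : G.Adj v (θ x) ↔ x.val < 16 :=
  ⟨fun h' => by by_contra hx; exact (g.far_hi h (not_lt.1 hx)).2 h', g.lo x⟩

theorem mem_blkc_lo {d : V} (hd : Far G v d) {x : Fin 31} (hx : x.val < 16) :
    x ∈ blkc G v p θ d ↔ G.Adj d (θ x) := by
  rw [mem_blkc, mem_FF]
  have := g.lo x hx
  exact ⟨fun h' => h'.elim (·.2) fun h2 => absurd this (h2.2.far hd).2, fun h' => Or.inl ⟨this, h'⟩⟩

theorem mem_blkc_hi {d : V} {x : Fin 31} (hx : 16 ≤ x.val) :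
    x ∈ blkc G v p θ d ↔ par G v d (θ x) := by
  rw [mem_blkc, mem_FF]
  exact ⟨fun h' => h'.elim (fun h2 => absurd h2.1 (g.far_hi h hx).2) (·.2),
    fun h' => Or.inr ⟨(g.hi x hx).1.symm, h'⟩⟩

omit h in
theorem FF_range {d : V} (hd : Far G v d) : ∀ a ∈ FF G v p d, ∃ x, θ x = a := by
  intro a ha
  rcases mem_FF.1 ha with h1 | h1
  · exact g.lo' a h1.1
  · exact g.hi' a h1.1.symm (h1.2.far hd).1

omit h in
theorem card_inter_blkc {d : V} (hd : Far G v d) (e : V) :
    (blkc G v p θ d ∩ blkc G v p θ e).card = (FF G v p d ∩ FF G v p e).card := by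
  rw [← card_pull g.inj fun a ha => FF_range g hd a (mem_inter.1 ha).1]
  congr 1
  ext x
  simp [mem_blkc]

theorem card_inter_npar {d e : V} (hd : Far G v d) (he : Far G v e) (hp : ¬ par G v d e) :
    (blkc G v p θ d ∩ blkc G v p θ e).card = jn G (CN G v d) e := by
  rw [card_inter_blkc g hd, jn]
  congr 1
  ext a
  simp only [mem_inter, mem_FF, mem_filter, mem_CN]
  constructor
  · rintro ⟨h1 | h1, h2 | h2⟩
    · exact ⟨h1, h2.2⟩
    · exact absurd h1.1 (h2.2.far he).2
    · exact absurd h2.1 (h1.2.far hd).2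
    · exact absurd (h1.2.trans h hd (h2.2.symm he)) hp
  · rintro ⟨h1, h2⟩
    exact ⟨Or.inl h1, Or.inl ⟨h1.1, h2⟩⟩

theorem card_inter_par {d e : V} (hd : Far G v d) (hp : par G v d e) (hne : d ≠ e) :
    (blkc G v p θ d ∩ blkc G v p θ e).card ≤ 1 := by
  have he := hp.far hd
  rw [card_inter_blkc g hd, card_le_one]
  have : ∀ a ∈ FF G v p d ∩ FF G v p e, G.Adj a p ∧ par G v d a := by
    intro a ha
    simp only [mem_inter, mem_FF] at ha
    obtain ⟨h1 | h1, h2 | h2⟩ := ha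
    · exact absurd (par_unique h hd (Or.inl rfl) hp h1.1 h1.2 h2.2) hne
    · exact absurd h1.1 (h2.2.far he).2
    · exact h1
    · exact h1
  intro a ha b hb
  exact par_unique h hd (this a ha).2 (this b hb).2 g.adj (this a ha).1 (this b hb).1

theorem exists_label {d : V} (hd : Far G v d) :
    ∃ l ∈ blkc G v p θ d, 16 ≤ l.val ∧ ∀ x ∈ blkc G v p θ d, 16 ≤ x.val → x = l := by
  obtain ⟨e, he, hep⟩ := par_exists h hd g.adj
  obtain ⟨l, rfl⟩ := g.hi' e hep.symm (he.far hd).1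
  have hl : 16 ≤ l.val := by
    by_contra hl
    exact (he.far hd).2 (g.lo l (not_le.1 hl))
  refine ⟨l, (mem_blkc_hi h g hl).2 he, hl, fun x hx hx' => g.inj ?_⟩
  exact par_unique h hd ((mem_blkc_hi h g hx').1 hx) he g.adj (g.hi x hx').1.symm hep

theorem card_blkc {d : V} (hd : Far G v d) : (blkc G v p θ d).card = 5 := by
  obtain ⟨e, he, hep⟩ := par_exists h hd g.adj
  have : FF G v p d = insert e (CN G v d) := by
    ext a
    simp only [mem_FF, mem_insert, mem_CN]
    constructor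
    · rintro (h1 | h1)
      · exact Or.inr h1
      · exact Or.inl (par_unique h hd h1.2 he g.adj h1.1 hep)
    · rintro (rfl | h1)
      · exact Or.inr ⟨hep, he⟩
      · exact Or.inl h1
  rw [blkc, card_pull g.inj (FF_range g hd), this,
    card_insert_of_notMem fun h' => (he.far hd).2 (mem_CN.1 h').1, card_CN h hd.1.symm hd.2]

theorem par_of_label {d e : V} (hd : Far G v d) (he : Far G v e) {l : Fin 31} (hl : 16 ≤ l.val)
    (h1 : l ∈ blkc G v p θ d) (h2 : l ∈ blkc G v p θ e) : par G v d e :=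
  ((mem_blkc_hi h g hl).1 h1).trans h hd (((mem_blkc_hi h g hl).1 h2).symm he)

theorem blkc_inj {d e : V} (hd : Far G v d) (he : Far G v e)
    (hde : blkc G v p θ d = blkc G v p θ e) : d = e := by
  by_contra hne
  obtain ⟨l, h1, hl, -⟩ := exists_label h g hd
  have := card_inter_par h g hd (par_of_label h g hd he hl h1 (hde ▸ h1)) hne
  rw [← hde, inter_self, card_blkc h g hd] at this
  omega

theorem adj_iff {d e : V} (hd : Far G v d) (he : Far G v e) :
    G.Adj d e ↔ blkc G v p θ d ∩ blkc G v p θ e = ∅ := by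
  rw [← card_eq_zero]
  constructor
  · intro h1
    rw [card_inter_npar h g hd he fun h' => h'.not_adj h1, jn_adj_right h h1]
  · intro h1
    have hp : ¬ par G v d e := by
      intro hp
      obtain ⟨l, h2, hl, -⟩ := exists_label h g hd
      have h3 : l ∈ blkc G v p θ e := (mem_blkc_hi h g hl).2
        ((hp.symm hd).trans h he ((mem_blkc_hi h g hl).1 h2))
      rw [card_eq_zero] at h1
      exact notMem_empty l (h1 ▸ mem_inter.2 ⟨h2, h3⟩)
    rw [card_inter_npar h g hd he hp] at h1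
    by_contra h2
    exact hp (Or.inr (mem_ZZ.2 ⟨he.1, fun e' => hp (Or.inl e'.symm), he.2, h2, h1⟩))

theorem pp_blkc : PP (blkc G v p θ '' {d | Far G v d}) where
  shape := by
    rintro _ ⟨d, hd, rfl⟩
    exact ⟨card_blkc h g hd, exists_label h g hd⟩
  same := by
    rintro _ ⟨d, hd, rfl⟩ _ ⟨e, he, rfl⟩ hne l hl h1 h2
    exact card_inter_par h g hd (par_of_label h g hd he hl h1 h2) fun e' => hne (e' ▸ rfl)
  diff := by
    rintro _ ⟨d, hd, rfl⟩ _ ⟨e, he, rfl⟩ hne
    have hde : d ≠ e := fun e' => hne (e' ▸ rfl)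
    by_cases hp : par G v d e
    · exact (card_inter_par h g hd hp hde).trans (by norm_num)
    · rw [card_inter_npar h g hd he hp]
      exact no33 h hd.1.symm he.1 hde.symm
  typ := by
    rintro _ ⟨b, hb, rfl⟩ _ ⟨b', hb', rfl⟩ _ ⟨d, hd, rfl⟩ l hl h1 h2 h3 h4
    have p1 := par_of_label h g hb hb' hl h1 h2
    have n1 : ¬ par G v b d := fun hp => h3 ((mem_blkc_hi h g hl).2
      ((hp.symm hb).trans h hd ((mem_blkc_hi h g hl).1 h1)))
    have n2 : ¬ par G v b' d := fun hp => n1 (p1.trans h hb hp)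
    rw [inter_comm, card_inter_npar h g hb hd n1, type_iff h hb hd n1] at h4
    rw [inter_comm, card_inter_npar h g hb' hd n2, type_iff h hb' hd n2]
    exact fun e he => h4 e (p1.trans h hb he)
  tri := by
    rintro _ ⟨b, hb, rfl⟩ _ ⟨c, hc, rfl⟩ _ ⟨d, hd, rfl⟩ h1 h2 h3
    exact srg_notri h ((adj_iff h g hb hc).2 h1) ((adj_iff h g hb hd).2 h2)
      ((adj_iff h g hc hd).2 h3)
  cov := by
    intro q l hq hl
    have hf := g.far_hi h hl
    obtain ⟨e, he, heq⟩ := par_exists h hf (g.lo q hq)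
    exact ⟨_, ⟨e, he.far hf, rfl⟩, (mem_blkc_lo h g (he.far hf) hq).2 heq,
      (mem_blkc_hi h g hl).2 (he.symm hf)⟩
  cov3 := by
    intro x y hx hy hxy s hs
    have h1 : θ x ≠ θ y := fun e => hxy (g.inj e)
    have h2 : ¬ G.Adj (θ x) (θ y) := srg_notri h (g.lo x hx) (g.lo y hy)
    have h3 : v ∈ CN G (θ x) (θ y) := mem_CN.2 ⟨(g.lo x hx).symm, (g.lo y hy).symm⟩
    have h4 : ∀ d ∈ (CN G (θ x) (θ y)).erase v, Far G v d := fun d hd =>
      ⟨(mem_erase.1 hd).1, fun h' => srg_notri h (g.lo x hx) h' (mem_CN.1 (mem_erase.1 hd).2).1⟩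
    have h5 : (((CN G (θ x) (θ y)).erase v).image (blkc G v p θ)).card = 3 := by
      rw [card_image_of_injOn fun a ha b hb e => blkc_inj h g (h4 a ha) (h4 b hb) e,
        card_erase_of_mem h3, card_CN h h1 h2]
    obtain ⟨b, hb, hbs⟩ := exists_mem_notMem_of_card_lt_card (s := s)
      (t := ((CN G (θ x) (θ y)).erase v).image (blkc G v p θ)) (by omega)
    obtain ⟨d, hd, rfl⟩ := mem_image.1 hb
    have h6 := mem_CN.1 (mem_erase.1 hd).2
    exact ⟨_, ⟨d, h4 d hd, rfl⟩, (mem_blkc_lo h g (h4 d hd) hx).2 h6.1.symm,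
      (mem_blkc_lo h g (h4 d hd) hy).2 h6.2.symm, hbs⟩

theorem ncard_blkc : (blkc G v p θ '' {d | Far G v d}).ncard = 60 := by
  rw [Set.InjOn.ncard_image (s := {d | Far G v d}) fun a ha b hb e => blkc_inj h g ha hb e]
  have : {d | Far G v d} = ((univ \ insert v (univ.filter (G.Adj v)) : Finset V) : Set V) := by
    ext d; simp [Far]
  rw [this, Set.ncard_coe_finset, card_sdiff_of_subset (subset_univ _), card_univ, h.card,
    card_insert_of_notMem (by simp), srg_deg h]

end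

theorem exists_good (h : G.IsSRGWith 77 16 0 4) {v p : V} (hp : G.Adj v p) :
    ∃ θ, Good G v p θ := by
  have h1 := srg_deg h v
  have h2 : ((univ.filter (G.Adj p)).erase v).card = 15 := by
    rw [card_erase_of_mem (by simp [hp.symm]), srg_deg h]
  let e1 := (equivFinOfCardEq h1).symm
  let e2 := (equivFinOfCardEq h2).symm
  have a1 : ∀ i, G.Adj v (e1 i) := fun i => (mem_filter.1 (e1 i).2).2
  have a2 : ∀ i, G.Adj p (e2 i) ∧ (e2 i : V) ≠ v := fun i =>
    ⟨(mem_filter.1 (mem_erase.1 (e2 i).2).2).2, (mem_erase.1 (e2 i).2).1⟩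
  refine ⟨fun x => if hx : x.val < 16 then e1 ⟨x, hx⟩ else e2 ⟨x - 16, by omega⟩, hp, ?_, ?_, ?_,
    ?_, ?_⟩
  · intro x y hxy
    by_cases hx : x.val < 16 <;> by_cases hy : y.val < 16 <;> simp only [hx, hy, dite_true,
      dite_false] at hxy
    · have := e1.injective (Subtype.ext hxy)
      exact Fin.ext (by simpa using this)
    · exact absurd (a2 _).1 (fun h' => srg_notri h hp (a1 _) (hxy ▸ h'))
    · exact absurd (a2 _).1 (fun h' => srg_notri h hp (a1 _) (hxy ▸ h'))
    · have := e2.injective (Subtype.ext hxy)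
      simp only [Fin.mk.injEq] at this
      exact Fin.ext (by omega)
  · intro x hx
    simp only [hx, dite_true]
    exact a1 _
  · intro x hx
    simp only [not_lt.2 hx, dite_false]
    exact a2 _
  · intro q hq
    obtain ⟨i, hi⟩ := e1.surjective ⟨q, by simp [hq]⟩
    exact ⟨⟨i, by omega⟩, by simp [hi]⟩
  · intro q hq hqv
    obtain ⟨i, hi⟩ := e2.surjective ⟨q, by simp [hq, hqv]⟩
    exact ⟨⟨i + 16, by omega⟩, by simp [hi]⟩

theorem exists_good_sys (h : G.IsSRGWith 77 16 0 4) {v p : V} (hp : G.Adj v p) :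
    ∃ θ, Good G v p θ ∧ blkc G v p θ '' {d | Far G v d} = sys 31 L0 := by
  let P : Set (Finset (Fin 31)) → Prop := fun B =>
    ∃ θ, Good G v p θ ∧ blkc G v p θ '' {d | Far G v d} = B
  let Q : Set (Finset (Fin 31)) → Prop := fun _ => P (sys 31 L0)
  have S : Sound P Q vs cands := by
    refine ⟨fun i j hij => ?_, ?_, fun _ _ _ _ h' => h', ?_⟩
    · simp only [vs, Bool.and_eq_true, Nat.blt_eq] at hij
      exact hij.1
    · rintro i j hij _ ⟨θ, g, rfl⟩
      have hij' : i.val < 16 ↔ j.val < 16 := by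
        simp only [vs, Bool.and_eq_true, beq_iff_eq] at hij
        rw [← Nat.blt_eq, ← Nat.blt_eq, hij.2]
      have hs : ∀ x : Fin 31, (Equiv.swap i j x).val < 16 ↔ x.val < 16 := by
        intro x
        rw [Equiv.swap_apply_def]
        split_ifs with h1 h2
        · rw [h1, hij']
        · rw [h2, hij']
        · rfl
      refine ⟨fun x => θ (Equiv.swap i j x), ⟨hp, g.inj.comp (Equiv.swap i j).injective,
        fun x hx => g.lo _ ((hs x).2 hx), fun x hx => g.hi _ (by have := hs x; omega),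
        fun q hq => ?_, fun q hq hq' => ?_⟩, ?_⟩
      · obtain ⟨x, rfl⟩ := g.lo' q hq
        exact ⟨Equiv.swap i j x, by simp⟩
      · obtain ⟨x, rfl⟩ := g.hi' q hq hq'
        exact ⟨Equiv.swap i j x, by simp⟩
      · rw [← Set.image_smul, Set.image_image]
        congr 1
        ext d x
        rw [← Finset.inv_smul_mem_iff, Equiv.swap_inv, Equiv.Perm.smul_def, mem_blkc, mem_blkc]
    · rintro L s l _ h1 ⟨θ, g, rfl⟩ hL
      exact cands_sound (pp_blkc h g) h1 hL
  have h0 : Claim P Q L0 := by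
    rintro _ ⟨θ, g, rfl⟩ hL
    exact ⟨θ, g, eq_sys (by decide +kernel) (by decide +kernel) (ncard_blkc h g) hL⟩
  obtain ⟨θ, g⟩ := exists_good h hp
  exact root S h0 _ ⟨θ, g, rfl⟩ (by simp)

/-- adjacency of codes -/
def RR : Option (Fin 31 ⊕ Finset (Fin 31)) → Option (Fin 31 ⊕ Finset (Fin 31)) → Prop
  | none, some (.inl _) => True
  | some (.inl _), none => True
  | some (.inl x), some (.inr b) => x ∈ b
  | some (.inr b), some (.inl x) => x ∈ b
  | some (.inr b), some (.inr c) => b ∩ c = ∅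
  | _, _ => False

theorem exists_code (h : G.IsSRGWith 77 16 0 4) :
    ∃ f : V → Option (Fin 31 ⊕ Finset (Fin 31)), Function.Injective f ∧
      Set.range f = {t | t = none ∨ (∃ x : Fin 31, x.val < 16 ∧ t = some (.inl x)) ∨
        ∃ b ∈ sys 31 L0, t = some (.inr b)} ∧ ∀ a b, G.Adj a b ↔ RR (f a) (f b) := by
  obtain ⟨v⟩ : Nonempty V := Fintype.card_pos_iff.1 (by rw [h.card]; norm_num)
  obtain ⟨p, hp⟩ := card_pos.1 (show 0 < (univ.filter (G.Adj v)).card by
    rw [srg_deg h]; norm_num)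
  obtain ⟨θ, g, hs⟩ := exists_good_sys h (mem_filter.1 hp).2
  let f : V → Option (Fin 31 ⊕ Finset (Fin 31)) := fun u =>
    if u = v then none else if G.Adj v u then some (.inl (Function.invFun θ u))
      else some (.inr (blkc G v p θ u))
  have f1 : f v = none := by simp [f]
  have f2 : ∀ x : Fin 31, x.val < 16 → f (θ x) = some (.inl x) := fun x hx => by
    simp [f, g.lo x hx, (g.lo x hx).ne.symm, Function.leftInverse_invFun g.inj x]
  have f3 : ∀ d, Far G v d → f d = some (.inr (blkc G v p θ d)) := fun d hd => by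
    simp [f, hd.1, hd.2]
  have tri : ∀ u, u = v ∨ (∃ x : Fin 31, x.val < 16 ∧ u = θ x) ∨ Far G v u := by
    intro u
    by_cases h1 : u = v
    · exact Or.inl h1
    by_cases h2 : G.Adj v u
    · obtain ⟨x, rfl⟩ := g.lo' u h2
      exact Or.inr (Or.inl ⟨x, (g.lo_iff h).1 h2, rfl⟩)
    · exact Or.inr (Or.inr ⟨h1, h2⟩)
  refine ⟨f, ?_, ?_, ?_⟩
  · intro a b hab
    rcases tri a with ha | ⟨x, hx, ha⟩ | ha <;> rcases tri b with hb | ⟨y, hy, hb⟩ | hb
    · rw [ha, hb]
    · rw [ha, hb, f1, f2 y hy] at hab; simp at hab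
    · rw [ha, f1, f3 b hb] at hab; simp at hab
    · rw [ha, hb, f1, f2 x hx] at hab; simp at hab
    · rw [ha, hb, f2 x hx, f2 y hy] at hab; simp at hab; rw [ha, hb, hab]
    · rw [ha, f2 x hx, f3 b hb] at hab; simp at hab
    · rw [hb, f1, f3 a ha] at hab; simp at hab
    · rw [hb, f2 y hy, f3 a ha] at hab; simp at hab
    · rw [f3 a ha, f3 b hb] at hab; simp at hab; exact blkc_inj h g ha hb hab
  · ext t
    constructor
    · rintro ⟨u, rfl⟩
      rcases tri u with hu | ⟨x, hx, hu⟩ | hu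
      · exact Or.inl (hu ▸ f1)
      · exact Or.inr (Or.inl ⟨x, hx, hu ▸ f2 x hx⟩)
      · exact Or.inr (Or.inr ⟨_, hs ▸ ⟨u, hu, rfl⟩, f3 u hu⟩)
    · rintro (rfl | ⟨x, hx, rfl⟩ | ⟨b, hb, rfl⟩)
      · exact ⟨v, f1⟩
      · exact ⟨_, f2 x hx⟩
      · rw [← hs] at hb
        obtain ⟨d, hd, rfl⟩ := hb
        exact ⟨d, f3 d hd⟩
  · intro a b
    rcases tri a with ha | ⟨x, hx, ha⟩ | ha <;> rcases tri b with hb | ⟨y, hy, hb⟩ | hb
    · rw [ha, hb, f1]; simp [RR]
    · rw [ha, hb, f1, f2 y hy]; simp [RR, g.lo y hy]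
    · rw [ha, f1, f3 b hb]; simp [RR, hb.2]
    · rw [ha, hb, f1, f2 x hx]; simp [RR, (g.lo x hx).symm]
    · rw [ha, hb, f2 x hx, f2 y hy]
      exact iff_of_false (srg_notri h (g.lo x hx) (g.lo y hy)) (by simp [RR])
    · rw [ha, f2 x hx, f3 b hb, G.adj_comm]; exact (mem_blkc_lo h g hb hx).symm
    · rw [hb, f1, f3 a ha, G.adj_comm]; simp [RR, ha.2]
    · rw [hb, f2 y hy, f3 a ha]; exact (mem_blkc_lo h g ha hy).symm
    · rw [f3 a ha, f3 b hb]; exact adj_iff h g ha hb

theorem srg77_iso {V W : Type*} [Fintype V] [Fintype W] {G : SimpleGraph V} {H : SimpleGraph W}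
    [DecidableRel G.Adj] [DecidableRel H.Adj] (hG : G.IsSRGWith 77 16 0 4)
    (hH : H.IsSRGWith 77 16 0 4) : Nonempty (G ≃g H) := by
  classical
  obtain ⟨f, f1, f2, f3⟩ := exists_code hG
  obtain ⟨g, g1, g2, g3⟩ := exists_code hH
  exact iso_of_code RR f g f1 g1 (f2.trans g2.symm) f3 g3

end Cfsg.Agent.H2.S77
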