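import Cfsg.Agent.H2.SteinerCount

/-! Counting helpers for graphs and designs. -/

set_option autoImplicit false

namespace Cfsg.Agent.H2

open Finset

theorem steiner_of_count {α : Type*} [Fintype α] [DecidableEq α] {t k : ℕ} {B : Set (Finset α)}
    (hk : ∀ b ∈ B, b.card = k) (hi : ∀ b ∈ B, ∀ c ∈ B, b ≠ c → (b ∩ c).card < t)
    (hc : B.ncard * k.choose t = (Fintype.card α).choose t) : IsSteinerSystem t k B := by
  refine ⟨hk, fun s hs => ?_⟩
  have h1 : ((blk B).biUnion (powersetCard t)).card = (powersetCard t (univ : Finset α)).card := by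
    rw [card_biUnion, card_powersetCard, card_univ, ← hc, ← card_blk,
      sum_congr rfl (g := fun _ => k.choose t), sum_const, smul_eq_mul]
    · intro b hb
      rw [card_powersetCard, hk b (mem_blk.1 hb)]
    · intro b hb c hc hbc
      rw [Function.onFun, disjoint_left]
      intro u hu hu'
      rw [mem_powersetCard] at hu hu'
      have := hi b (mem_blk.1 hb) c (mem_blk.1 hc) hbc
      have := card_le_card (subset_inter hu.1 hu'.1)
      omega
  have h2 := eq_of_subset_of_card_le (s := (blk B).biUnion (powersetCard t))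
    (t := powersetCard t univ) (by
      intro u hu
      obtain ⟨b, -, hb⟩ := mem_biUnion.1 hu
      exact mem_powersetCard.2 ⟨subset_univ _, (mem_powersetCard.1 hb).2⟩) h1.ge
  have h3 : s ∈ (blk B).biUnion (powersetCard t) := by
    rw [h2]; exact mem_powersetCard.2 ⟨subset_univ _, hs⟩
  obtain ⟨b, hb, hsb⟩ := mem_biUnion.1 h3
  refine ⟨b, ⟨mem_blk.1 hb, (mem_powersetCard.1 hsb).1⟩, ?_⟩
  rintro c ⟨hc, hsc⟩
  by_contra hne
  have := hi c hc b (mem_blk.1 hb) hne
  have := card_le_card (subset_inter hsc (mem_powersetCard.1 hsb).1)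
  omega

theorem eq_of_moments {V : Type*} (D : Finset V) (x : V → ℕ) (c : ℕ)
    (h1 : ∑ u ∈ D, x u = c * D.card) (h2 : ∑ u ∈ D, x u ^ 2 = c ^ 2 * D.card) :
    ∀ u ∈ D, x u = c := by
  have h3 : ∑ u ∈ D, ((x u : ℤ) - c) ^ 2 = 0 := by
    have e : ∀ u, ((x u : ℤ) - c) ^ 2 = ((x u ^ 2 : ℕ) : ℤ) - 2 * c * (x u : ℤ) + c ^ 2 := by
      intro u; push_cast; ring
    simp only [e, sum_add_distrib, sum_sub_distrib, ← mul_sum, sum_const, nsmul_eq_mul,
      ← Nat.cast_sum, h1, h2]
    push_cast; ring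
  intro u hu
  have := (sum_eq_zero_iff_of_nonneg (fun _ _ => sq_nonneg _)).1 h3 u hu
  have := sub_eq_zero.1 (pow_eq_zero_iff (two_ne_zero) |>.1 this)
  exact_mod_cast this

variable {V : Type*} [Fintype V] [DecidableEq V] (G : SimpleGraph V) [DecidableRel G.Adj]

omit [Fintype V] [DecidableEq V] in
theorem sum_card_adj (U C : Finset V) :
    ∑ u ∈ U, (C.filter (G.Adj u)).card = ∑ a ∈ C, (U.filter (G.Adj a)).card := by
  simp only [card_filter]
  rw [sum_comm]
  simp only [G.adj_comm]

omit [Fintype V] [DecidableEq V] in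
theorem sum_card_adj_mul (U C C' : Finset V) :
    ∑ u ∈ U, (C.filter (G.Adj u)).card * (C'.filter (G.Adj u)).card =
      ∑ a ∈ C, ∑ a' ∈ C', (U.filter (fun u => G.Adj a u ∧ G.Adj a' u)).card := by
  simp only [card_filter, sum_mul_sum]
  rw [sum_comm]
  refine sum_congr rfl fun a _ => ?_
  rw [sum_comm]
  refine sum_congr rfl fun a' _ => sum_congr rfl fun u _ => ?_
  simp only [G.adj_comm u]
  by_cases h1 : G.Adj a u <;> by_cases h2 : G.Adj a' u <;> simp [h1, h2]

variable {G} {n k l m : ℕ}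

omit [DecidableEq V] in
theorem srg_deg (h : G.IsSRGWith n k l m) (a : V) : (univ.filter (G.Adj a)).card = k := by
  rw [← h.regular a, ← SimpleGraph.card_neighborFinset_eq_degree, SimpleGraph.neighborFinset_eq_filter]

omit [DecidableEq V] in
theorem srg_common (a b : V) : (univ.filter (fun u => G.Adj a u ∧ G.Adj b u)).card =
    Fintype.card (G.commonNeighbors a b) := by
  rw [← Nat.card_eq_fintype_card, Nat.card_coe_set_eq, ← Set.ncard_coe_finset]
  congr 1
  ext u
  simp [SimpleGraph.mem_commonNeighbors]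

omit [DecidableEq V] in
theorem srg_adj (h : G.IsSRGWith n k l m) {a b : V} (hab : G.Adj a b) :
    (univ.filter (fun u => G.Adj a u ∧ G.Adj b u)).card = l := by
  rw [srg_common, h.of_adj a b hab]

omit [DecidableEq V] in
theorem srg_nadj (h : G.IsSRGWith n k l m) {a b : V} (hne : a ≠ b) (hab : ¬ G.Adj a b) :
    (univ.filter (fun u => G.Adj a u ∧ G.Adj b u)).card = m := by
  rw [srg_common, h.of_not_adj hne hab]

omit [DecidableEq V] in
theorem srg_notri (h : G.IsSRGWith n k 0 m) {a b c : V} (hab : G.Adj a b) (hac : G.Adj a c)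
    (hbc : G.Adj b c) : False := by
  have := card_eq_zero.1 (srg_adj h hab)
  have h2 : c ∈ univ.filter (fun u => G.Adj a u ∧ G.Adj b u) := by simp [hac, hbc]
  rw [this] at h2
  simp at h2

end Cfsg.Agent.H2
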